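import Mathlib
import Cfsg.Agent.Lib.PLen.HHB
import Cfsg.Agent.Lib.Coprime.Generation
import Cfsg.Agent.Lib.Coprime.Abelian
import Cfsg.Agent.Lib.Tech.SylowIn

/-!
Linear groups normalised by a group of cubic elements.
-/

set_option autoImplicit false

namespace CfsgLib.C7O

open Subgroup Module CfsgLib.Tech

theorem not_dvd_of_cent {G : Type*} [Group G] [Finite G] {p : ℕ} [Fact p.Prime] {K A : Subgroup G}
    (hA : IsPGroup p A) (hAK : A ≤ normalizer (K : Set G))
    (h : ∀ k ∈ K, (∀ z ∈ A, Commute k z) → ∀ n, k ^ p ^ n = 1 → k = 1) : ¬ p ∣ Nat.card K := by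
  obtain ⟨S, hS, h1⟩ := exists_isSylowIn_ge hA hAK
  have h2 := hS.inf_of_le_normalizer le_rfl
  rw [inf_eq_right.mpr le_normalizer] at h2
  have h3 : S ⊓ K = ⊥ := by
    by_contra h3
    refine Coprime.inf_centralizer_ne_bot_of_isPGroup hA _ h2.pgroup
      ((le_inf (h1.trans le_normalizer) hAK).trans inf_normalizer_le_normalizer_inf) h3
      (eq_bot_iff.2 fun k hk => ?_)
    obtain ⟨n, hn⟩ := isPGroup_iff_mem.1 h2.pgroup k hk.1
    exact h k hk.1.2 (fun z hz => (hk.2 z hz).symm) n hn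
  simpa [h3] using h2.not_dvd

theorem eq_one_of_not_dvd {G : Type*} [Group G] [Finite G] {p : ℕ} [hp : Fact p.Prime]
    {K : Subgroup G} (h : ¬ p ∣ Nat.card K) {k : G} (hk : k ∈ K) (h1 : k ^ p = 1) : k = 1 := by
  by_contra h2
  exact h (orderOf_eq_prime h1 h2 ▸ K.orderOf_dvd_natCard hk)

variable {F V : Type*} [Field F] [AddCommGroup V] [Module F V] [FiniteDimensional F V]

theorem cent_of_cubic [Finite (V ≃ₗ[F] V)] {p : ℕ} [hp : Fact p.Prime] [CharP F p]
    (h2 : (2 : F) ≠ 0) {K A : Subgroup (V ≃ₗ[F] V)} (hAK : A ≤ normalizer (K : Set _))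
    (hA : ∀ y ∈ A, y ^ p = 1) (h3 : ∀ y ∈ A, ((y : End F V) - 1) ^ 3 = 0)
    (hc : ∀ y ∈ A, ∀ z ∈ A, y * z = z * y) (hb : 3 < Nat.card A) (hK : ¬ p ∣ Nat.card K)
    (h1 : ∀ k ∈ K, ∀ y ∈ A, y ≠ 1 → Commute k y → ∀ z ∈ A, Commute k z) :
    ∀ k ∈ K, ∀ z ∈ A, Commute k z := by
  have hP : IsPGroup p A := isPGroup_iff_mem.2 fun y hy => ⟨1, by simpa using hA y hy⟩
  have cop : ∀ B ≤ A, (Nat.card B).Coprime (Nat.card K) := fun B hB => by
    obtain ⟨n, hn⟩ := IsPGroup.iff_card.1 (hP.to_le hB)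
    exact hn ▸ ((Nat.Prime.coprime_iff_not_dvd hp.out).2 hK).pow_left n
  intro k hk z hz
  by_cases h5 : p = 3
  · have : IsMulCommutative A := ⟨⟨fun a b => Subtype.ext (hc _ a.2 _ b.2)⟩⟩
    refine (Coprime.le_of_forall_centralizer_le (H := centralizer (A : Set _)) (fun h6 => ?_) hAK
      (cop A le_rfl) (fun a ha h6 k hk y hy => (h1 k hk.1 a ha h6
        (mem_centralizer_singleton_iff.1 hk.2) y hy).symm) hk z hz).symm
    have h7 := Monoid.exponent_dvd_of_forall_pow_eq_one fun y : A => Subtype.ext (hA y y.2)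
    rw [IsCyclic.exponent_eq_card, h5] at h7
    exact absurd (Nat.le_of_dvd (by omega) h7) (by omega)
  have h6 : p ≠ 2 := by rintro rfl; exact h2 (by exact_mod_cast CharP.cast_eq_zero F 2)
  have h7 := Coprime.eq_of_forall_invariant_pgroup_le (K := K) (A := zpowers z)
    (H := K ⊓ centralizer {z}) ((zpowers_le.2 hz).trans hAK) (cop _ (zpowers_le.2 hz))
    (Or.inl inferInstance) inf_le_left fun r P hr hPK hP' _ hn => le_inf hPK fun g hg => by
      have := Fact.mk hr
      by_cases hrp : p = r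
      · subst hrp
        obtain ⟨n, hn⟩ := isPGroup_iff_mem.1 hP' g hg
        rw [show g = 1 from orderOf_eq_one_iff.1 (Nat.eq_one_of_dvd_coprimes
          (((Nat.Prime.coprime_iff_not_dvd hp.out).2 hK).pow_left n) (orderOf_dvd_of_pow_eq_one hn)
            (K.orderOf_dvd_natCard (hPK hg)))]
        exact one_mem _
      by_contra h8
      have h9 := ((HH.hh hp.out hrp (by
        rw [Ne, CharP.cast_eq_zero_iff F p, Nat.prime_dvd_prime_iff_eq hp.out hr]; exact hrp)
        LinearEquiv.automorphismGroup.toLinearMapMonoidHom P z 0 hP' (hn (mem_zpowers z))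
        (by rw [← map_pow, zero_add, pow_one, hA z hz, map_one]) ⟨g, hg, fun e => h8
          (mem_centralizer_singleton_iff.2 (LinearEquiv.toLinearMap_injective (by
            simpa using e.symm)))⟩) |> PLen.HHConcl.powIndep hp.out.pos).le_of_sub_one_pow (h3 z hz)
      have := hp.out.two_le
      have h4 : p ≠ 4 := by rintro rfl; exact absurd hp.out (by decide)
      simp at h9; omega
  exact mem_centralizer_singleton_iff.1 (h7.ge hk).2

end CfsgLib.C7O
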