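import Mathlib
import Cfsg.Agent.Lib.OMax.TenO3

/-!
Tensor products of two orthogonal spaces of Witt index one: root elements.
-/

set_option autoImplicit false
set_option linter.unusedSectionVars false

namespace CfsgLib.C7O

open Module CfsgLib.ClMax CfsgLib.ClMax.Ten CfsgLib.OrthE CfsgLib.OMax QuadraticMap

variable {F U W V : Type*} [Field F] [AddCommGroup U] [Module F U] [AddCommGroup W]
  [Module F W] [AddCommGroup V] [Module F V] {τ : U →ₗ[F] W →ₗ[F] V}

/-- Witt index at most one. -/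
def An (P : QuadraticForm F U) : Prop :=
  ∀ x y, P x = 0 → x ≠ 0 → P y = 0 → polar P x y = 0 → y ∈ Submodule.span F {x}

section Small

variable {P : QuadraticForm F U} [FiniteDimensional F U]

theorem scalar_of_quad [Finite F] (hP : Nondeg P) (h2 : (2 : F) ≠ 0) (h3 : 3 ≤ finrank F U)
    (hq : ∃ t : F, t ≠ 0 ∧ t * t ≠ 1) {e : End F U}
    (hs : ∀ p r, polar P (e p) r = polar P p (e r)) (A : ∀ u, P u = 0 → polar P u (e u) = 0) :
    ∃ c : F, ∀ u, e u = c • u := by
  have hs' : ∀ p r, polar P p (e r) = polar P r (e p) := fun p r => by rw [← hs, polar_comm]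
  refine scalar_of_sing hP h2 h3 fun u hu => ?_
  by_cases hu0 : u = 0
  · simp [hu0]
  obtain ⟨u', h⟩ := hP.exists_hyp hu hu0
  have k : ∀ c, polar P c u' = 0 → polar P c u = 0 →
      polar P u (e c) = P c * polar P u' (e c) := fun c h1 h1' => by
    have e1 := A _ (h.symm.eich_apply_f h1 h1' ▸ (O_map _ u).trans hu)
    have e2 := A _ (h.symm.eich_apply_f (w := -c) (by simp [h1]) (by simp [h1']) ▸
      (O_map _ u).trans hu)
    simp only [map_sub, map_smul, map_neg, polar_sub_left, polar_sub_right, polar_smul_left,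
      polar_smul_right, polar_neg_left, polar_neg_right, smul_eq_mul, Q_neg, hs' c u,
      hs' c u'] at e1 e2
    exact mul_left_cancel₀ (mul_ne_zero h2 h2) (by linear_combination e2 - e1)
  have k2 : ∀ c, polar P c u' = 0 → polar P c u = 0 → polar P u (e c) = 0 := fun c h1 h1' => by
    rw [k c h1 h1']
    obtain ⟨t, ht, ht'⟩ := hq
    have e1 := k (t • c) (by simp [h1]) (by simp [h1'])
    simp only [map_smul, polar_smul_right, smul_eq_mul, Q_smul, k c h1 h1'] at e1
    exact mul_left_cancel₀ (mul_ne_zero ht (sub_ne_zero.2 ht')) (by linear_combination -e1)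
  refine mem_span_of_orth hP fun a ha => ?_
  rw [hs, eq_add_pr (Q := P) (e := u) (f := u') a]
  simp [A u hu, pc ha, k2 _ (h.pr_f a) (h.pr_e a)]

theorem mem_of_three (hP : Nondeg P) (h2 : (2 : F) ≠ 0) (h3 : finrank F U = 3) {u v w : U}
    (hu : u ≠ 0) (huu : polar P u u = 0) (hv : P v ≠ 0) (h1 : polar P u v = 0)
    (h4 : polar P u w = 0) (h5 : polar P v w = 0) : w ∈ Submodule.span F {u} := by
  by_contra hw
  have h7 : LinearIndependent F ![u, v, w] := by
    rw [Fintype.linearIndependent_iff]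
    intro g hg
    simp only [Fin.sum_univ_three, Matrix.cons_val] at hg
    have h8 : g 1 = 0 := by simpa [pc h1, h5, h2, hv] using congrArg (polar P v) hg
    have h9 : g 2 = 0 := by
      by_contra h9
      refine hw ((Submodule.smul_mem_iff _ h9).1 (Submodule.mem_span_singleton.2 ⟨-g 0, ?_⟩))
      rw [h8] at hg
      linear_combination (norm := module) -hg
    have h10 : g 0 = 0 := by simpa [h8, h9, hu] using hg
    intro i; fin_cases i <;> assumption
  refine hu (hP u fun y => ?_)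
  have hy : y ∈ Submodule.span F (Set.range ![u, v, w]) :=
    h7.span_eq_top_of_card_eq_finrank' (by simp [h3]) ▸ Submodule.mem_top
  obtain ⟨g, rfl⟩ := (Submodule.mem_span_range_iff_exists_fun F).1 hy
  simp [Fin.sum_univ_three, huu, h1, h4, -polar_self]

theorem an_of_three (hP : Nondeg P) (h3 : finrank F U = 3) : An P := fun x y hx h0 hy hxy => by
  by_contra h6
  have h7 : ∀ v ∈ Submodule.span F {x, y}, P v = 0 := fun v hv => by
    obtain ⟨a, b, rfl⟩ := Submodule.mem_span_pair.1 hv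
    simp [Q_add, Q_smul, hx, hy, hxy]
  have h8 : finrank F (Submodule.span F {x, y}) = 2 := by
    have := finrank_span_eq_card ((LinearIndependent.pair_iff' h0).2 fun a e =>
      h6 (Submodule.mem_span_singleton.2 ⟨a, e⟩))
    rwa [Matrix.range_cons_cons_empty] at this
  have h9 := two_mul_le_of_ts hP (nd_top hP) le_top h7
  rw [finrank_top] at h9
  omega

/-- A unipotent isometry of a three-dimensional space fixing a nonsingular vector is trivial. -/
theorem eq_one_of_nil (hP : Nondeg P) (h2 : (2 : F) ≠ 0) (h3 : finrank F U = 3) {α : End F U}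
    (hα : ∀ a b, polar P (α a) (α b) = polar P a b) {v : U} (hv : P v ≠ 0) (h1 : α v = v)
    (hn : IsNilpotent (α - 1)) (b : U) : α b = b := by
  by_contra hb
  obtain ⟨a, h4, h5⟩ : ∃ a, α a - a ≠ 0 ∧ α (α a - a) = α a - a := by
    by_contra! h4
    obtain ⟨n, hn⟩ := hn
    have : ∀ k : ℕ, ((α - 1) ^ (k + 1) : End F U) b ≠ 0 := fun k => by
      induction k with
      | zero => simpa [sub_eq_zero] using hb
      | succ k ih =>
        rw [pow_succ'] at ih
        rw [pow_succ', pow_succ']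
        exact sub_ne_zero.2 (h4 _ ih)
    exact this n (by simp [pow_succ, hn])
  have k : ∀ z, α z = z → ∀ c, polar P z (α c - c) = 0 := fun z hz c => by
    rw [polar_sub_right, ← hα z c, hz, sub_self]
  generalize hu : α a - a = u at h4 h5
  have k2 : ∀ c, ∃ s : F, α c = c + s • u := fun c => by
    obtain ⟨s, hs⟩ := Submodule.mem_span_singleton.1 (mem_of_three hP h2 h3 h4 (hu ▸ k _ (hu ▸ h5) a)
      hv (pc (hu ▸ k v h1 a)) (k u h5 c) (k v h1 c))
    exact ⟨s, by rw [hs]; abel⟩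
  have huu : polar P u u = 0 := by nth_rw 2 [← hu]; exact k u h5 a
  have k3 : ∀ c (s : F), α c = c + s • u → s * polar P u c = 0 := fun c s e => by
    have := hα c c
    rw [e] at this
    simp only [polar_add_left, polar_add_right, polar_smul_left, polar_smul_right, huu,
      polar_comm P c u, smul_eq_mul] at this
    exact mul_left_cancel₀ h2 (by linear_combination this)
  obtain ⟨c, hc⟩ := hP.exists_ne h4
  obtain ⟨s, hs⟩ := k2 c
  have e1 := k3 a 1 (by rw [← hu]; simp)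
  have e2 := (mul_eq_zero.1 (k3 c s hs)).resolve_right hc
  have e3 := k3 (c + a) 1 (by rw [map_add, hs, e2, ← hu]; simp)
  rw [one_mul] at e1 e3
  exact hc (by simpa [e1] using e3)

end Small

/-- An overgroup of the product of the two groups `Ω`. -/
structure O1 (P₁ : QuadraticForm F U) (P₂ : QuadraticForm F W) (Q : QuadraticForm F V)
    (h : IsTensorProduct τ) (X : Subgroup (V ≃ₗ[F] V)) : Prop extends TenO P₁ P₂ Q h where
  ha : 3 ≤ finrank F U
  hb : 3 ≤ finrank F W
  a₁ : An P₁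
  a₂ : An P₂
  hq : 5 ≤ Nat.card F
  hX : X ≤ O Q
  right : ∀ {β}, β ∈ E P₂ → (toTenO.rhom β).1 ∈ X
  left : ∀ {α}, α ∈ E P₁ → (toTenO.flip.rhom α).1 ∈ X

variable {P₁ : QuadraticForm F U} {P₂ : QuadraticForm F W} {Q : QuadraticForm F V}
  {h : IsTensorProduct τ}

namespace O1

variable {X : Subgroup (V ≃ₗ[F] V)} (H : O1 P₁ P₂ Q h X) [FiniteDimensional F U]
  [FiniteDimensional F W] [Finite F]
include H

theorem symm : O1 P₂ P₁ Q (Ten.flip h) X :=
  ⟨H.flip, H.hb, H.ha, H.a₂, H.a₁, H.hq, H.hX, H.left, H.right⟩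

theorem exists_t : ∃ t : F, t ≠ 0 ∧ t * t ≠ 1 := by
  have := Fintype.ofFinite F
  obtain ⟨t, h7, h8, h9, -⟩ := ClMax.big_of_card (F := F) (by
    have := H.hq; rwa [Nat.card_eq_fintype_card] at this) 1 (-1) 0
  exact ⟨t, h7, fun e => (mul_self_eq_one_iff.1 e).elim h8 h9⟩

theorem pol {g : V ≃ₗ[F] V} (hg : g ∈ X) (x y : V) : polar Q (g x) (g y) = polar Q x y :=
  O_polar ⟨g, H.hX hg⟩ x y

theorem wedge_of_Z {x : W} (hx : P₂ x = 0) (hx0 : x ≠ 0)
    {m : End F U} (hm : m ∈ ZO h X hx) (hm0 : m ≠ 0) : ∃ u, u ≠ 0 ∧ P₁ u = 0 ∧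
      ∀ a, polar P₁ u a = 0 → EA (X.subgroupOf (O Q)) (τ u x) (τ a x) := by
  have h2 := H.two
  obtain ⟨x', hx'⟩ := H.n₂.exists_hyp hx hx0
  have hs : ∀ p r, polar P₁ p (m r) = -polar P₁ (m p) r := fun p r => by
    obtain ⟨g, hg, e⟩ := hm.exists
    have := H.pol hg (τ p x') (τ r x')
    simp [e, H.eq, hx'.hee, hx'.hff, hx'.hef, hx'.hfe] at this
    linear_combination this
  have hs0 : ∀ p, polar P₁ p (m p) = 0 := fun p =>
    mul_left_cancel₀ h2 (by linear_combination hs p p - polar_comm P₁ (m p) p)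
  obtain ⟨u, hu, hd⟩ : ∃ u, P₁ u = 0 ∧ m u ∉ Submodule.span F {u} := by
    by_contra h'
    push Not at h'
    obtain ⟨c, hc⟩ := scalar_of_sing H.n₁ h2 H.ha h'
    obtain ⟨u, u', hu⟩ := H.n₁.exists_hyp_of_three H.ha
    have := hs u u'
    simp only [hc, polar_smul_left, polar_smul_right, hu.hef, smul_eq_mul] at this
    have h3 : c = 0 := mul_left_cancel₀ h2 (by linear_combination this)
    exact hm0 (LinearMap.ext fun v => by simp [hc, h3])
  have hu0 : u ≠ 0 := by rintro rfl; simp at hd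
  have hQ0 : ∀ a, Q (τ a x) = 0 := fun a => by simp [H.Q_tau, hx]
  let A := (EAs (X.subgroupOf (O Q)) (hQ0 u)).comap (τ.flip x).toAddMonoidHom
  have k : ∀ c, polar P₁ u c = 0 → (2 : F) • (P₁ c • m u - polar P₁ c (m u) • c) ∈ A := by
    intro c hc
    have k1 : ∀ c, polar P₁ u c = 0 → ((eich P₁ u c).1 : End F U) * m *
        ((eich P₁ u (-c)).1 : End F U) ∈ ZO h X hx := fun c hc =>
      UIn.conj' hm (H.left (eich_mem_E u c)) fun v => by
        simp [H.cP_lhom, H.lhom_apply, eich_neg]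
    obtain ⟨g, hg, e⟩ := UIn.exists (sub_mem (sub_mem (add_mem (k1 c hc) (k1 (-c) (by simp [hc])))
      hm) hm)
    have h5 : polar Q (τ u x) (τ ((2 : F) • (P₁ c • m u - polar P₁ c (m u) • c)) x) = 0 := by
      simp [H.eq, pself hx]
    refine ⟨hQ0 u, h5, Subgroup.mem_subgroupOf.2 ?_⟩
    convert hg using 1
    ext v
    erw [eich_ap (hQ0 u) h5]
    rw [e, hQ0, H.B_tau, H.B_tau]
    generalize hy : cP h P₂ x v = y
    have h6 : polar P₁ u (-c) = 0 := by simp [hc]
    simp only [LinearMap.comp_apply, hy, LinearMap.flip_apply, LinearMap.sub_apply,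
      LinearMap.add_apply, End.mul_apply, LinearEquiv.coe_coe, neg_neg, eich_ap hu hc,
      eich_ap hu h6]
    simp only [map_add, map_sub, map_smul, map_neg, polar_add_right, polar_sub_right,
      polar_smul_right, polar_neg_left, polar_neg_right, polar_smul_left, polar_sub_left,
      smul_eq_mul, Q_neg, hs0, hs u y, hs u c, polar_comm P₁ (m u) c, LinearMap.add_apply,
      LinearMap.sub_apply, LinearMap.smul_apply, LinearMap.neg_apply]
    module
  have k2 : ∀ c d, polar P₁ u c = 0 → polar P₁ u d = 0 →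
      polar P₁ c d • m u - polar P₁ c (m u) • d - polar P₁ d (m u) • c ∈ A := fun c d hc hd => by
    convert sub_mem (sub_mem (k ((2 : F)⁻¹ • c + d) (by simp [hc, hd]))
      (k ((2 : F)⁻¹ • c) (by simp [hc]))) (k d hd) using 1
    simp only [Q_add, polar_add_left, polar_smul_left, smul_eq_mul]
    match_scalars <;> field_simp <;> ring
  refine ⟨u, hu0, hu, fun a ha => show a ∈ A from ?_⟩
  have h4 := polar_self_ne h2 fun h3 => hd (H.a₁ u _ hu hu0 h3 (hs0 u))
  convert neg_mem (k2 ((polar P₁ (m u) (m u))⁻¹ • m u) a (by simp [hs0]) ha) using 1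
  simp only [polar_smul_left, smul_eq_mul, polar_comm P₁ a]
  match_scalars <;> field_simp
  ring

theorem E_le_of_wedge {x₀ : W} (hx₀ : P₂ x₀ = 0) (hx0 : x₀ ≠ 0) {u₀ : U} (hu₀ : P₁ u₀ = 0)
    (hu0 : u₀ ≠ 0)
    (h0 : ∀ a, polar P₁ u₀ a = 0 → EA (X.subgroupOf (O Q)) (τ u₀ x₀) (τ a x₀)) :
    E Q ≤ X.subgroupOf (O Q) := by
  have := finiteDimensional h
  have hb := H.hb
  obtain ⟨u₁, hu₁⟩ := H.n₁.exists_hyp hu₀ hu0
  obtain ⟨x₁, hx₁⟩ := H.n₂.exists_hyp hx₀ hx0
  have h1 : ∀ u x, u ≠ 0 → P₁ u = 0 → x ≠ 0 → P₂ x = 0 → ∀ a, polar P₁ u a = 0 →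
      EA (X.subgroupOf (O Q)) (τ u x) (τ a x) := fun u x hu hu' hx hx' a ha => by
    obtain ⟨α, hα, s, hs, e1⟩ := hu₁.exists_E_singular H.n₁ (hu₁.exists_nonsingular H.n₁ H.ha)
      hu0 hu hu₀ hu'
    obtain ⟨β, hβ, t, ht, e2⟩ := hx₁.exists_E_singular H.n₂
      (hx₁.exists_nonsingular H.n₂ (by omega)) hx0 hx hx₀ hx'
    have h2 := ((h0 (α⁻¹.1 ((s * t * t)⁻¹ • a)) (by
      rw [← O_polar_left, e1]; simp [ha])).conj (g := H.flip.rhom α) (H.left hα)).conj
      (g := H.rhom β) (H.right hβ)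
    simp only [H.lhom_apply, H.rhom_apply, e1, e2, O_apply_inv_apply, map_smul,
      LinearMap.smul_apply, smul_smul] at h2
    refine (h2.of_smul_left (mul_ne_zero hs ht)).congr ?_
    match_scalars; field_simp
  have hQ0 : ∀ u x, P₁ u = 0 → Q (τ u x) = 0 := fun u x hu => by simp [H.Q_tau, hu]
  have h2 : ∀ u x, u ≠ 0 → P₁ u = 0 → x ≠ 0 → P₂ x = 0 → ∀ w,
      EA (X.subgroupOf (O Q)) (τ u x) (τ u w) := fun u x hu hu' hx hx' =>
    sing_span H.n₂ hx' hx ((EAs _ (hQ0 u x hu')).comap (τ u).toAddMonoidHom)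
      (fun t => (EA.self (hQ0 u x hu') t).congr (by simp)) fun y hy hxy => by
      obtain ⟨b, -, b', -, h3, h4, h5⟩ := exists_pair_orth H.n₁ (nd_top H.n₁) (by simpa using H.ha)
        trivial hu hu'
      have := (h1 u x hu hu' hx hx' ((polar P₂ x y)⁻¹ • b') (by simp [h4])).move
        (h1 u y hu hu' (ne_zero_of_polar (polar_comm P₂ x y ▸ hxy)) hy b h3)
        (by simp [H.eq, pself hu']) (by simp [H.eq, pc h3])
      change EA _ _ (τ u y)
      simpa [H.eq, h4, h5, polar_comm P₂ y x, hxy] using this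
  have h3' : ∀ u x, u ≠ 0 → P₁ u = 0 → x ≠ 0 → P₂ x = 0 → ∀ w, polar P₂ x w = 0 → P₂ w ≠ 0 → ∀ a,
      EA (X.subgroupOf (O Q)) (τ u x) (τ a w) := fun u x hu hu' hx hx' w hw hw' =>
    sing_span H.n₁ hu' hu ((EAs _ (hQ0 u x hu')).comap (τ.flip w).toAddMonoidHom)
      (fun t => (h2 u x hu hu' hx hx' (t • w)).congr (by simp)) fun a ha hua => by
      have h6 : x ∉ Submodule.span F {w} := fun h6 => by
        obtain ⟨c, rfl⟩ := Submodule.mem_span_singleton.1 h6
        simp [Q_smul, hw', left_ne_zero_of_smul hx] at hx'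
      obtain ⟨z, h7, h8⟩ := exists_dual_one H.n₂ h6
      have := (h2 u x hu hu' hx hx' (-(polar P₁ u a)⁻¹ • z)).move
        (h2 a x (ne_zero_of_polar (polar_comm P₁ u a ▸ hua)) ha hx hx' w)
        (by simp [H.eq, pself hx']) (by simp [H.eq, pc hw])
      change EA _ _ (τ a w)
      simpa [H.eq, h7, h8, polar_comm P₁ a u, hua, hQ0 a w ha] using this
  have h3 : ∀ u x, u ≠ 0 → P₁ u = 0 → x ≠ 0 → P₂ x = 0 → ∀ w, polar P₂ x w = 0 → ∀ a,
      EA (X.subgroupOf (O Q)) (τ u x) (τ a w) := fun u x hu hu' hx hx' w hw a => by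
    by_cases hw' : P₂ w = 0
    · obtain ⟨y, hy⟩ := H.n₂.exists_hyp hx' hx
      obtain ⟨d, h4, -, h5⟩ := hy.exists_nonsingular H.n₂ hb
      obtain ⟨c, rfl⟩ := Submodule.mem_span_singleton.1 (H.a₂ x w hx' hx hw' hw)
      exact ((h3' u x hu hu' hx hx' (d + c • x) (by simp [pc h4, pself hx', -polar_self])
        (by simpa [Q_add, Q_smul, hx', h4] using h5) a).sub
        (h3' u x hu hu' hx hx' d (pc h4) h5 a)).congr (by simp)
    · exact h3' u x hu hu' hx hx' w hw hw' a
  have h4 : ∀ u x, u ≠ 0 → P₁ u = 0 → x ≠ 0 → P₂ x = 0 →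
      EFull (X.subgroupOf (O Q)) (τ u x) := fun u x hu hu' hx hx' v hv => by
    obtain ⟨u', h5⟩ := H.n₁.exists_hyp hu' hu
    obtain ⟨y, h6⟩ := H.n₂.exists_hyp hx' hx
    have h7 : ∀ v, EA (X.subgroupOf (O Q)) (τ u x) (v - τ (cP h P₂ x v) y) := fun v => by
      induction v using h.inductionOn with
      | zero => simpa using EA.zero (hQ0 u x hu')
      | add a b ha hb => exact (ha.add hb).congr (by simp; abel)
      | tmul a z =>
        exact (h3 u x hu hu' hx hx' (z - polar P₂ x z • y) (by simp [h6.hef]) a).congr (by simp)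
    rw [H.B_tau] at hv
    have h8 := (h3 u x hu hu' hx hx' x (pself hx') u').move (h1 u y hu hu' h6.f_ne h6.hf _ hv)
      (by simp [H.eq, pself hu']) (by simp [H.eq, pc hv])
    generalize polar Q _ (τ u' x) - _ = c at h8
    refine ((h7 v).add ((h2 u x hu hu' hx hx' (c • y)).sub h8)).congr ?_
    simp [H.eq, h5.hef, h6.hfe]
  exact E_le_of_two H.hQ (by have := H.ha; rw [finrank_eq h]; nlinarith) (hQ0 _ _ hu₀)
    (hQ0 _ _ hu₁.hf) (h4 _ _ hu0 hu₀ hx0 hx₀) (h4 _ _ hu₁.f_ne hu₁.hf hx₁.f_ne hx₁.hf)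
    (by simp [H.eq, hu₁.hef, hx₁.hef])

theorem noZ (hE : ¬ E Q ≤ X.subgroupOf (O Q)) (x : W) (hx : P₂ x = 0) (hx0 : x ≠ 0)
    (m : End F U) (hm : m ∈ ZO h X hx) : m = 0 := by
  by_contra hm0
  obtain ⟨u, hu0, hu, h1⟩ := H.wedge_of_Z hx hx0 hm hm0
  exact hE (H.E_le_of_wedge hx hx0 hu hu0 h1)

end O1

end CfsgLib.C7O
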