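import Mathlib
import Cfsg.Agent.Lib.C7O.One

/-!
Tensor products of two orthogonal spaces of Witt index one: the stabiliser of `U ⊗ x`.
-/

set_option autoImplicit false
set_option linter.unusedSectionVars false

namespace CfsgLib.C7O

open Module CfsgLib.ClMax CfsgLib.ClMax.Ten CfsgLib.OrthE CfsgLib.OMax QuadraticMap

variable {F U W V : Type*} [Field F] [AddCommGroup U] [Module F U] [AddCommGroup W]
  [Module F W] [AddCommGroup V] [Module F V] {τ : U →ₗ[F] W →ₗ[F] V}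

/-- An overgroup not containing `Ω`. -/
structure O2 (P₁ : QuadraticForm F U) (P₂ : QuadraticForm F W) (Q : QuadraticForm F V)
    (h : IsTensorProduct τ) (X : Subgroup (V ≃ₗ[F] V)) : Prop extends O1 P₁ P₂ Q h X where
  ne : ¬ E Q ≤ X.subgroupOf (O Q)

variable {P₁ : QuadraticForm F U} {P₂ : QuadraticForm F W} {Q : QuadraticForm F V}
  {h : IsTensorProduct τ}

namespace O2

variable {X : Subgroup (V ≃ₗ[F] V)} (H : O2 P₁ P₂ Q h X) [FiniteDimensional F U]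
  [FiniteDimensional F W] [Finite F]
include H

theorem sym : O2 P₂ P₁ Q (Ten.flip h) X := ⟨H.symm, H.ne⟩

theorem cP_map {x x₁ : W} {g : V ≃ₗ[F] V} (hg : g ∈ X) {u u₁ : U} (e : g (τ u x) = τ u₁ x₁)
    (v : V) : polar P₁ u₁ (cP h P₂ x₁ (g v)) = polar P₁ u (cP h P₂ x v) := by
  rw [← H.B_tau, ← e, H.pol hg, H.B_tau]

theorem cP_sub {x : W} {t : V ≃ₗ[F] V} (ht : RX h P₂ X x t) (v : V) : cP h P₂ x (t v - v) = 0 :=
  polar_ext H.n₁ fun u => by simp [H.cP_map ht.mem (ht.fix u)]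

theorem rx_conj {x x₁ : W} {g t : V ≃ₗ[F] V} (ht : RX h P₂ X x t) (hg : g ∈ X) {α : U ≃ₗ[F] U}
    (e : ∀ u, g (τ u x) = τ (α u) x₁) : RX h P₂ X x₁ (g * t * g⁻¹) := by
  refine ⟨X.mul_mem (X.mul_mem hg ht.mem) (X.inv_mem hg), fun u => ?_, fun v hv => ?_⟩
  · obtain ⟨u, rfl⟩ := α.surjective u
    simp [← e, ht.fix]
  · obtain ⟨v, rfl⟩ := g.surjective v
    obtain ⟨u, hu⟩ := ht.sub v (polar_ext H.n₁ fun u => by rw [← H.cP_map hg (e u), hv]; simp)
    exact ⟨α u, by simp [hu, e]⟩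

theorem rx_eich {x c : W} (hx : P₂ x = 0) (hc : polar P₂ x c = 0) :
    RX h P₂ X x (H.rhom (eich P₂ x c)).1 :=
  ⟨H.right (eich_mem_E _ _), fun u => by rw [H.rhom_apply, eich_apply_self],
    fun v hv => ⟨cP h P₂ c v, by simp [H.rhom_eich hx hc, hv]⟩⟩

theorem rx_pol {x : W} {t : V ≃ₗ[F] V} (ht : RX h P₂ X x t) {v : V} {p : U}
    (e : t v = v + τ p x) (a : V) : polar Q (t a - a) v = -polar Q a (τ p x) := by
  have h1 := H.pol ht.mem a v
  have h2 : polar Q (τ p x) (t a - a) = 0 := by rw [H.B_tau, H.cP_sub ht, polar_zero_right]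
  rw [e, polar_add_right] at h1
  rw [polar_comm, polar_sub_left] at h2
  rw [polar_sub_left]
  linear_combination h1 - h2

omit H in
theorem exists_equiv (h : IsTensorProduct τ) {x x₁ : W} (hx0 : x ≠ 0) (hx1 : x₁ ≠ 0)
    {g : V ≃ₗ[F] V} (hs : ∀ u, ∃ u', g (τ u x) = τ u' x₁) :
    ∃ α : U ≃ₗ[F] U, ∀ u, g (τ u x) = τ (α u) x₁ := by
  obtain ⟨θ₀, hθ₀⟩ := exists_dual_one_of_ne (F := F) hx1
  let α₀ : U →ₗ[F] U := cR h θ₀ ∘ₗ (g : V →ₗ[F] V) ∘ₗ τ.flip x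
  have hα₀ : ∀ u, g (τ u x) = τ (α₀ u) x₁ := fun u => by
    obtain ⟨u', hu'⟩ := hs u
    have : α₀ u = u' := by simp [α₀, hu', hθ₀]
    rw [this, hu']
  have hinj : Function.Injective α₀ := by
    rw [← LinearMap.ker_eq_bot, LinearMap.ker_eq_bot']
    intro u hu
    have := hα₀ u
    rw [hu, map_zero, LinearMap.zero_apply, LinearEquiv.map_eq_zero_iff] at this
    by_contra h0
    exact ne_zero h h0 hx0 this
  exact ⟨LinearEquiv.ofInjectiveEndo α₀ hinj, hα₀⟩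

theorem eq_of_fix {x : W} (hx : P₂ x = 0) (hx0 : x ≠ 0) {g k : V ≃ₗ[F] V} (hg : g ∈ X)
    (hk : k ∈ X) (hf : ∀ v, cP h P₂ x v = 0 → g v = k v) : g = k := by
  obtain ⟨x', hx'⟩ := H.n₂.exists_hyp hx hx0
  have hg' := X.mul_mem (X.inv_mem hk) hg
  have hf' : ∀ v, cP h P₂ x v = 0 → (k⁻¹ * g) v = v := fun v hv => by simp [hf v hv]
  rw [← mul_inv_cancel_left k g]
  generalize k⁻¹ * g = g at hg' hf'
  let m : End F U := cP h P₂ x' ∘ₗ ((g : V →ₗ[F] V) - LinearMap.id) ∘ₗ τ.flip x'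
  have hm : ∀ u, g (τ u x') = τ u x' + τ (m u) x := fun u => by
    obtain ⟨y, hy⟩ := H.exists_eq_tau hx0 (v := g (τ u x') - τ u x') fun u' c hc => by
      rw [polar_sub_right, ← hf' (τ u' c) (by simp [hc]), H.pol hg', hf' (τ u' c) (by simp [hc]),
        sub_self]
    have : m u = y := by
      change cP h P₂ x' (g (τ u x') - τ u x') = y
      rw [hy]; simp [hx'.hfe]
    rw [this, ← hy]; abel
  have e : ∀ v, g v = v + τ (m (cP h P₂ x v)) x := fun v => by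
    have := hf' (v - τ (cP h P₂ x v) x') (by simp [hx'.hef])
    rw [map_sub, hm] at this
    linear_combination (norm := module) this
  have := H.noZ H.ne x hx hx0 m (uIn_of_apply hg' e)
  exact LinearEquiv.ext fun v => by simp [e, this]

theorem rx_comm {x : W} (hx : P₂ x = 0) (hx0 : x ≠ 0) {t t' : V ≃ₗ[F] V} (ht : RX h P₂ X x t)
    (ht' : RX h P₂ X x t') (a b : V) :
    polar Q (t a - a) (t' b - b) = polar Q (t' a - a) (t b - b) := by
  have h1 := H.eq_of_fix hx hx0 (X.mul_mem ht.mem ht'.mem) (X.mul_mem ht'.mem ht.mem)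
    fun v hv => by
      obtain ⟨p, hp⟩ := ht.sub v hv
      obtain ⟨p', hp'⟩ := ht'.sub v hv
      simp only [LinearEquiv.mul_apply, hp, hp', map_add, ht.fix, ht'.fix]
      abel
  obtain ⟨p, hp⟩ := ht.sub _ (H.cP_sub ht' b)
  obtain ⟨p', hp'⟩ := ht'.sub _ (H.cP_sub ht b)
  have h2 : t (t' b) = t' (t b) := LinearEquiv.congr_fun h1 b
  rw [H.rx_pol ht hp, H.rx_pol ht' hp']
  rw [map_sub] at hp hp'
  rw [show τ p x = τ p' x by linear_combination (norm := module) h2 - hp + hp']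

theorem eq_eich {x : W} (hx : P₂ x = 0) (hx0 : x ≠ 0) {t : V ≃ₗ[F] V} (ht : RX h P₂ X x t) :
    ∃ c, polar P₂ x c = 0 ∧ t = (H.rhom (eich P₂ x c)).1 := by
  obtain ⟨x', hx'⟩ := H.n₂.exists_hyp hx hx0
  obtain ⟨D, hD⟩ : ∃ D : U →ₗ[F] V, ∀ u, D u = t (τ u x') - τ u x' :=
    ⟨((t : V →ₗ[F] V) - LinearMap.id) ∘ₗ τ.flip x', fun _ => rfl⟩
  have D0 : ∀ u a, polar Q (τ a x) (D u) = 0 := fun u a => by
    rw [H.B_tau, hD, H.cP_sub ht, polar_zero_right]
  have Bf : ∀ u z v, polar Q (τ u z) v = polar P₂ z (cP (Ten.flip h) P₁ u v) :=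
    fun u z v => H.flip.B_tau z u v
  have A : ∀ u, P₁ u = 0 → cP (Ten.flip h) P₁ u (D u) ∈ Submodule.span F {x} := fun u hu => by
    by_cases hu0 : u = 0
    · simp [hu0]
    obtain ⟨u', hu'⟩ := H.n₁.exists_hyp hu hu0
    obtain ⟨d, h1, h2, h3⟩ := hu'.exists_nonsingular H.n₁ H.ha
    have k : ∀ c, polar P₁ c u = 0 → polar P₁ c u' = 0 →
        polar Q ((H.flip.rhom (eich P₁ u c)).1 (D u)) (D (u' - c - P₁ c • u)) =
          polar Q (D u) ((H.flip.rhom (eich P₁ u c)).1 (D u')) := fun c h1 h2 => by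
      have := H.rx_comm hx hx0 ht (H.rx_conj ht (H.left (inv_mem (eich_mem_E u c)))
        (H.lhom_apply (eich P₁ u c)⁻¹ · x)) (τ u x') (τ u' x')
      have e : ∀ b, ((H.flip.rhom (eich P₁ u c)⁻¹).1 * t * ((H.flip.rhom (eich P₁ u c)⁻¹).1)⁻¹)
          (τ b x') - τ b x' = (H.flip.rhom (eich P₁ u c))⁻¹.1 (D ((eich P₁ u c).1 b)) := fun b =>
        (O_inv_apply_eq _ (by simp [hD, H.lhom_apply])).symm
      rwa [e, e, ← hD, ← hD, polar_comm, O_polar_inv_left, O_polar_inv_left, polar_comm,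
        hu'.eich_apply_f h1 h2, eich_apply_self] at this
    obtain ⟨s, hs, hs'⟩ := H.exists_t
    refine H.a₂ x _ hx hx0 ?_ (by rw [← Bf, D0])
    have k2 : ∀ r : F, _ := fun r => k (r • d) (by simp [h1]) (by simp [h2])
    have e1 := k2 1
    have e2 := k2 (-1)
    have e3 := k2 s
    have e4 := k2 (-s)
    rw [H.flip.rhom_eich hu (by simp [pc h1]), H.flip.rhom_eich hu (by simp [pc h1])] at e1 e2 e3 e4
    simp only [LinearMap.flip_apply, polar_comm Q (D u) (_ - _), polar_add_left, polar_sub_left, Bf,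
      map_sub, map_smul, polar_sub_right, polar_smul_left, polar_smul_right, Q_smul,
      LinearMap.smul_apply, LinearMap.sub_apply, smul_eq_mul] at e1 e2 e3 e4
    rw [polar_self' P₂] at e1 e2 e3 e4
    refine mul_left_cancel₀ (mul_ne_zero (mul_ne_zero (mul_ne_zero H.two H.two) (mul_ne_zero hs hs))
      (mul_ne_zero (sub_ne_zero.2 hs') (mul_ne_zero h3 h3))) ?_
    linear_combination e3 + e4 - s * s * (e1 + e2) + (2 - 2 * s * s) * polar_comm Q (D u') (D u)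
  have k2 : ∀ y, polar P₂ x y = 0 → ∃ s : F, ∀ u, cP h P₂ y (D u) = s • u := fun y hy =>
    scalar_of_quad (e := cP h P₂ y ∘ₗ D) H.n₁ H.two H.ha H.exists_t (fun p r => by
      have := H.rx_comm hx hx0 ht (H.rx_eich hx hy) (τ p x') (τ r x')
      simp only [H.rhom_apply, eich_ap hx hy, hx'.hef, ← hD, one_smul, map_sub, map_add, map_smul,
        add_sub_right_comm, sub_sub_cancel_left, polar_add_left, polar_add_right,
        polar_smul_left, polar_smul_right, D0, pc (D0 _ _), polar_neg_left, polar_neg_right,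
        add_left_inj, neg_inj] at this
      rw [polar_comm, H.B_tau, H.B_tau, polar_comm] at this
      exact this) fun u hu => by
      obtain ⟨c, hc⟩ := Submodule.mem_span_singleton.1 (A u hu)
      rw [LinearMap.comp_apply, ← H.B_tau, Bf, ← hc, polar_smul_right, pc hy, smul_zero]
  obtain ⟨u₀, u₁, hu⟩ := H.n₁.exists_hyp_of_three H.ha
  obtain ⟨c, hc⟩ := exists_polar_dual H.n₂ (-polarBilin P₁ u₀ ∘ₗ (cP h P₂).flip (D u₁))
  have hc : ∀ y, polar P₂ c y = -polar P₁ u₀ (cP h P₂ y (D u₁)) := fun y => LinearMap.congr_fun hc y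
  have hcx : polar P₂ x c = 0 := by rw [polar_comm, hc, ← H.B_tau, D0, neg_zero]
  have k3 : ∀ y, polar P₂ x y = 0 → ∀ u, cP h P₂ y (D u) = -polar P₂ c y • u := fun y hy u => by
    obtain ⟨s, hs⟩ := k2 y hy
    rw [hc, hs, hs]; simp [hu.hef]
  refine ⟨c, hcx, H.eq_of_fix hx hx0 ht.mem (H.right (eich_mem_E _ _)) fun v hv => ?_⟩
  obtain ⟨p, hp⟩ := ht.sub v hv
  rw [hp, H.rhom_eich hx hcx, hv, show p = cP h P₂ c v from polar_ext H.n₁ fun u => ?_]
  · simp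
  obtain ⟨z, hz⟩ := H.exists_eq_tau hx0 (v := D u + τ u c) fun u' y hy => by
    rw [polar_add_right, H.B_tau, k3 y hy, H.eq, polar_comm P₂ y c]; simp [mul_comm]
  have h1 := H.rx_pol ht hp (τ u x')
  rw [← hD, eq_sub_of_add_eq hz, polar_sub_left, H.B_tau, H.B_tau, hv, H.eq, hx'.hfe] at h1
  simpa using h1.symm

theorem exists_rel {x x₁ : W} (hx : P₂ x = 0) (hx0 : x ≠ 0) (hx₁ : P₂ x₁ = 0) (hx1 : x₁ ≠ 0)
    {g : V ≃ₗ[F] V} (hg : g ∈ X) {α : U ≃ₗ[F] U} (e : ∀ u, g (τ u x) = τ (α u) x₁) :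
    ∃ μ : F, μ ≠ 0 ∧ (∀ u u', polar P₁ (α u) (α u') = μ * polar P₁ u u') ∧
      ∀ c, polar P₂ x c = 0 → ∃ c₁, polar P₂ x₁ c₁ = 0 ∧
        ∀ u, ∃ u', g (τ u c) = τ (α u) c₁ + τ u' x₁ := by
  obtain ⟨x', hx'⟩ := H.n₂.exists_hyp hx hx0
  have k : ∀ c, polar P₂ x c = 0 → ∃ c₁, polar P₂ x₁ c₁ = 0 ∧
      ∀ u, ∃ u', g (τ u c) = τ (cP h P₂ x₁ (g (τ u x'))) c₁ + τ u' x₁ := fun c hc => by
    obtain ⟨c₁, h1, h2⟩ := H.eq_eich hx₁ hx1 (H.rx_conj (H.rx_eich hx hc) hg e)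
    refine ⟨c₁, h1, fun u => ?_⟩
    have h3 := LinearEquiv.congr_fun h2 (g (τ u x'))
    rw [H.rhom_eich hx₁ h1, LinearEquiv.mul_apply, LinearEquiv.mul_apply, inv_apply_apply,
      H.rhom_eich hx hc, map_sub, map_add, e, cP_apply h P₂ x, hx'.hef, one_smul] at h3
    generalize α _ = a, cP h P₂ c₁ _ - _ = b at h3
    exact ⟨a - b, by rw [map_sub, LinearMap.sub_apply]; linear_combination (norm := module) -h3⟩
  obtain ⟨d, h1, -, h2⟩ := hx'.exists_nonsingular H.n₂ H.hb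
  obtain ⟨d₁, h3, h4⟩ := k d (pc h1)
  have h5 : ∀ u u', polar P₁ (cP h P₂ x₁ (g (τ u x'))) (cP h P₂ x₁ (g (τ u' x'))) *
      polar P₂ d₁ d₁ = polar P₁ u u' * polar P₂ d d := fun u u' => by
    obtain ⟨a, ha⟩ := h4 u
    obtain ⟨a', ha'⟩ := h4 u'
    rw [← H.eq u, ← H.pol hg, ha, ha']
    simp [H.eq, h3, pc h3, pself hx₁, -polar_self]
  have h6 := polar_self_ne H.two h2
  obtain ⟨u₀, u₁, hu⟩ := H.n₁.exists_hyp_of_three H.ha
  have h7 : polar P₂ d₁ d₁ ≠ 0 := fun h7 => h6 (by simpa [h7, hu.hef] using (h5 u₀ u₁).symm)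
  have h8 : ∀ u u', polar P₁ (α u) (cP h P₂ x₁ (g (τ u' x'))) = polar P₁ u u' := fun u u' => by
    rw [H.cP_map hg (e u), cP_apply, hx'.hef, one_smul]
  have h9 : ∀ u, cP h P₂ x₁ (g (τ u x')) = (polar P₂ d d / polar P₂ d₁ d₁) • α u := fun u => by
    rw [← map_smul, ← α.symm_apply_eq]
    refine polar_ext H.n₁ fun u' => ?_
    rw [polar_comm, ← h8, α.apply_symm_apply, polar_smul_right, smul_eq_mul, div_mul_eq_mul_div,
      eq_div_iff h7, h5, polar_comm, mul_comm]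
  refine ⟨polar P₂ d₁ d₁ / polar P₂ d d, div_ne_zero h7 h6, fun u u' => ?_, fun c hc => ?_⟩
  · rw [← h8 u u', h9, polar_smul_right, smul_eq_mul]; field_simp
  · obtain ⟨c₁, h10, h11⟩ := k c hc
    exact ⟨(polar P₂ d d / polar P₂ d₁ d₁) • c₁, by simp [h10, -polar_self], fun u => by
      simpa only [h9, map_smul, LinearMap.smul_apply] using h11 u⟩

end O2

end CfsgLib.C7O
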