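import Mathlib
import Cfsg.Agent.Lib.C7O.Rx
import Cfsg.Agent.Lib.C7O.Cub

/-!
Tensor products of two orthogonal spaces of Witt index one: the stabiliser of `v ⊗ W`.
-/

set_option autoImplicit false
set_option linter.unusedSectionVars false

namespace CfsgLib.C7O

open Module CfsgLib.ClMax CfsgLib.ClMax.Ten CfsgLib.OrthE CfsgLib.OMax QuadraticMap

variable {F U W V : Type*} [Field F] [AddCommGroup U] [Module F U] [AddCommGroup W]
  [Module F W] [AddCommGroup V] [Module F V] {τ : U →ₗ[F] W →ₗ[F] V}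
  {P₁ : QuadraticForm F U} {P₂ : QuadraticForm F W} {Q : QuadraticForm F V}
  {h : IsTensorProduct τ}

theorem finite_equiv [Finite F] [FiniteDimensional F V] : Finite (V ≃ₗ[F] V) :=
  have := Module.finite_of_finite F (M := V)
  Finite.of_injective (fun g : V ≃ₗ[F] V => (g : V → V)) DFunLike.coe_injective

theorem nil_of_pow {p : ℕ} [Fact p.Prime] [CharP F p] [Nontrivial U] {α : End F U} {n : ℕ}
    (h : α ^ p ^ n = 1) : IsNilpotent (α - 1) := by
  have : CharP (End F U) p := charP_of_injective_algebraMap (algebraMap F (End F U)).injective p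
  exact ⟨p ^ n, by rw [sub_pow_char_pow_of_commute _ _ (Commute.one_right α), h]; simp⟩

variable (τ) in
/-- The pointwise stabiliser of `v ⊗ W`. -/
def Kv (X : Subgroup (V ≃ₗ[F] V)) (v : U) : Subgroup (V ≃ₗ[F] V) where
  carrier := {k | k ∈ X ∧ ∀ z, k (τ v z) = τ v z}
  mul_mem' ha hb := ⟨mul_mem ha.1 hb.1, fun z => by simp [ha.2, hb.2]⟩
  one_mem' := ⟨one_mem _, fun _ => rfl⟩
  inv_mem' {a} ha := ⟨inv_mem ha.1, fun z => a.injective (by simp [ha.2])⟩

/-- The root group of the right factor. -/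
def Qx (H : TenO P₁ P₂ Q h) {x : W} (hx : P₂ x = 0) : Subgroup (V ≃ₗ[F] V) where
  carrier := {y | ∃ c, polar P₂ x c = 0 ∧ y = (H.rhom (eich P₂ x c)).1}
  mul_mem' := by
    rintro _ _ ⟨c, hc, rfl⟩ ⟨d, hd, rfl⟩
    exact ⟨c + d, by simp [hc, hd], by rw [← eich_mul hx hc hd, map_mul]; rfl⟩
  one_mem' := ⟨0, by simp, by simp [eich_zero_right]⟩
  inv_mem' := by
    rintro _ ⟨c, hc, rfl⟩
    exact ⟨-c, by simp [hc], by rw [eich_neg, map_inv]; rfl⟩

theorem sq_eich (H : TenO P₁ P₂ Q h) {x c : W} (hx : P₂ x = 0) (hc : polar P₂ x c = 0) (v : V) :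
    (H.rhom (eich P₂ x c)).1 ((H.rhom (eich P₂ x c)).1 v - v) - ((H.rhom (eich P₂ x c)).1 v - v) =
      -(2 * P₂ c) • τ (cP h P₂ x v) x := by
  simp [H.rhom_eich hx hc, hx, hc, pc hc]

theorem pow_eich (H : TenO P₁ P₂ Q h) {p : ℕ} [CharP F p] {x c : W} (hx : P₂ x = 0)
    (hc : polar P₂ x c = 0) : (H.rhom (eich P₂ x c)).1 ^ p = 1 := by
  rw [← Subgroup.coe_pow, ← map_pow, eich_pow hx hc]; simp [eich_zero_right]

theorem stab_of_comm (H : TenO P₁ P₂ Q h) {x c : W} (hx : P₂ x = 0) (hx0 : x ≠ 0)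
    (hc : polar P₂ x c = 0) (hc0 : P₂ c ≠ 0) {x₁ c₁ : W} (hx₁ : P₂ x₁ = 0)
    (hc₁ : polar P₂ x₁ c₁ = 0) {k : V ≃ₗ[F] V}
    (hk : k * (H.rhom (eich P₂ x c)).1 = (H.rhom (eich P₂ x₁ c₁)).1 * k) (v : V) :
    k (τ (cP h P₂ x v) x) = τ ((P₂ c₁ / P₂ c) • cP h P₂ x₁ (k v)) x₁ := by
  have e : ∀ v, k ((H.rhom (eich P₂ x c)).1 v) = (H.rhom (eich P₂ x₁ c₁)).1 (k v) :=
    LinearEquiv.congr_fun hk
  have h1 := congrArg k (sq_eich H hx hc v)
  rw [map_sub, e, map_sub, e, sq_eich H hx₁ hc₁, map_smul] at h1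
  refine smul_right_injective V (neg_ne_zero.2 (mul_ne_zero H.two hc0)) ?_
  simp only [← h1, map_smul, LinearMap.smul_apply, smul_smul]
  congr 1; field_simp

namespace O2

variable {X : Subgroup (V ≃ₗ[F] V)} (H : O2 P₁ P₂ Q h X) [FiniteDimensional F U]
  [FiniteDimensional F W] [Finite F]
include H

theorem comm_of_stab {v : U} (hv : v ≠ 0) {x : W} (hx : P₂ x = 0) (hx0 : x ≠ 0) {k : V ≃ₗ[F] V}
    (hk : k ∈ Kv τ X v) (hs : ∀ u, ∃ u', k (τ u x) = τ u' x) :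
    ∀ y ∈ Qx H.toTenO hx, Commute k y := by
  rintro _ ⟨c, hc, rfl⟩
  obtain ⟨α, hα⟩ := exists_equiv h hx0 hx0 hs
  obtain ⟨c₁, -, h2⟩ := H.eq_eich hx hx0 (H.rx_conj (H.rx_eich hx hc) hk.1 hα)
  have h3 : eich P₂ x c₁ = eich P₂ x c := O_ext fun z => right_inj h hv (by
    rw [← H.rhom_apply, ← h2]
    simp [((Kv τ X v).inv_mem hk).2, H.rhom_apply, hk.2])
  exact mul_inv_eq_iff_eq_mul.1 (h3 ▸ h2)

variable (h3 : finrank F U = 3) {p : ℕ} [Fact p.Prime] [CharP F p]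
include h3

omit H [Finite F] [FiniteDimensional F W] in
theorem left_one (H : TenO P₁ P₂ Q h) {v : U} (hv : P₁ v ≠ 0) {α : U ≃ₗ[F] U} {μ : F}
    (hμ : ∀ u u', polar P₁ (α u) (α u') = μ * polar P₁ u u') (h1 : α v = v) {n : ℕ}
    (hn : α ^ p ^ n = 1) (u : U) : α u = u := by
  have : Nontrivial U := ⟨v, 0, ne_zero_of_Q hv⟩
  have h4 : μ = 1 := by
    have := hμ v v
    rw [h1] at this
    exact mul_right_cancel₀ (polar_self_ne H.two hv) (by rw [← this, one_mul])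
  refine eq_one_of_nil (α := α) H.n₁ H.two h3 (fun a b => by simp [hμ, h4]) hv h1
    (nil_of_pow (p := p) (n := n) ?_) u
  exact (map_pow LinearEquiv.automorphismGroup.toLinearMapMonoidHom α _).symm.trans
    (by rw [hn]; rfl)

theorem eq_one_of_stab {v : U} (hv : P₁ v ≠ 0) {x : W} (hx : P₂ x = 0) (hx0 : x ≠ 0)
    {k : V ≃ₗ[F] V} (hk : k ∈ Kv τ X v) (hs : ∀ u, ∃ u', k (τ u x) = τ u' x) {n : ℕ}
    (hn : k ^ p ^ n = 1) : k = 1 := by
  obtain ⟨α, hα⟩ := exists_equiv h hx0 hx0 hs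
  obtain ⟨μ, -, h4, h5⟩ := H.exists_rel hx hx0 hx hx0 hk.1 hα
  have h6 : ∀ m u, (k ^ m) (τ u x) = τ ((α ^ m) u) x := fun m => by
    induction m with
    | zero => simp
    | succ m ih => intro u; simp [pow_succ, hα, ih]
  have h7 := left_one h3 H.toTenO hv h4 (left_inj h hx0 ((hα v).symm.trans (hk.2 x))) (p := p) (n := n)
    (LinearEquiv.ext fun u => left_inj h hx0 (by rw [← h6, hn]; rfl))
  obtain ⟨x', hx'⟩ := H.n₂.exists_hyp hx hx0
  have h8 : ∀ w, ∃ u, k (w - τ (cP h P₂ x w) x') = w - τ (cP h P₂ x w) x' + τ u x := fun w => by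
    induction w using h.inductionOn with
    | zero => exact ⟨0, by simp⟩
    | add a b ha hb =>
      obtain ⟨u, hu⟩ := ha
      obtain ⟨u', hu'⟩ := hb
      refine ⟨u + u', ?_⟩
      simp only [map_add, map_sub, LinearMap.add_apply] at hu hu' ⊢
      linear_combination (norm := module) hu + hu'
    | tmul a z =>
      obtain ⟨c₁, -, h8⟩ := h5 (z - polar P₂ x z • x') (by simp [hx'.hef])
      obtain ⟨u, hu⟩ := h8 a
      obtain ⟨u', hu'⟩ := h8 v
      rw [hk.2, h7, ← sub_eq_iff_eq_add', ← map_sub] at hu'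
      obtain ⟨s, hs⟩ := Submodule.mem_span_singleton.1
        (mem_span_of_eq (Ten.flip h) (ne_zero_of_Q hv) hu')
      refine ⟨u - s • a, ?_⟩
      rw [h7, show c₁ = z - polar P₂ x z • x' - s • x by rw [hs]; abel] at hu
      simp only [map_smul, map_sub, cP_apply, LinearMap.smul_apply, LinearMap.sub_apply] at hu ⊢
      linear_combination (norm := module) hu
  obtain ⟨c, -, h9⟩ := H.eq_eich hx hx0 (t := k) ⟨hk.1, fun u => by rw [hα, h7], fun w hw => by
    simpa [hw] using h8 w⟩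
  have h10 : eich P₂ x c = 1 := O_ext fun z => right_inj h (ne_zero_of_Q hv) (by
    rw [← H.rhom_apply, ← h9, hk.2]; rfl)
  simp [h9, h10]

theorem cent {v : U} (hv : P₁ v ≠ 0) {x : W} (hx : P₂ x = 0) (hx0 : x ≠ 0) :
    ¬ p ∣ Nat.card (Kv τ X v) ∧ ∀ k ∈ Kv τ X v, ∀ y ∈ Qx H.toTenO hx, Commute k y := by
  have := finiteDimensional h
  have := finite_equiv (F := F) (V := V)
  obtain ⟨x', hx'⟩ := H.n₂.exists_hyp hx hx0
  obtain ⟨d, h4, h5, h6⟩ := hx'.exists_nonsingular H.n₂ H.hb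
  have st : ∀ {c k}, polar P₂ x c = 0 → P₂ c ≠ 0 → Commute k (H.rhom (eich P₂ x c)).1 →
      ∀ u, ∃ u', k (τ u x) = τ u' x := fun hc hc0 hk u => by
    have := stab_of_comm H.toTenO hx hx0 hc hc0 hx hc hk.eq (τ u x')
    rw [cP_apply, hx'.hef, one_smul] at this
    exact ⟨_, this⟩
  have hp : ∀ y ∈ Qx H.toTenO hx, y ^ p = 1 := by
    rintro _ ⟨c, hc, rfl⟩; exact pow_eich H.toTenO hx hc
  have hn : Qx H.toTenO hx ≤ Subgroup.normalizer (Kv τ X v : Set _) := by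
    rintro _ ⟨c, hc, rfl⟩
    refine Tech.mem_normalizer_of_forall fun k hk => ⟨mul_mem (mul_mem (H.right (eich_mem_E _ _))
      hk.1) (inv_mem (H.right (eich_mem_E _ _))), fun z => ?_⟩
    rw [← Subgroup.coe_inv, ← map_inv, LinearEquiv.mul_apply, LinearEquiv.mul_apply, H.rhom_apply,
      hk.2, H.rhom_apply, O_apply_inv_apply]
  have h7 : ¬ p ∣ Nat.card (Kv τ X v) := not_dvd_of_cent
    (Tech.isPGroup_iff_mem.2 fun y hy => ⟨1, by simpa using hp y hy⟩) hn fun k hk h7 n h8 =>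
      H.eq_one_of_stab h3 hv hx hx0 hk (st (pc h4) h6 (h7 _ ⟨d, pc h4, rfl⟩)) h8
  refine ⟨h7, cent_of_cubic H.two hn hp ?_ ?_ ?_ h7 ?_⟩
  · rintro _ ⟨c, hc, rfl⟩
    ext w
    have := congrArg ((H.rhom (eich P₂ x c)).1 - 1 : End F V) (sq_eich H.toTenO hx hc w)
    simpa [pow_succ', H.rhom_apply, eich_apply_self] using this
  · rintro _ ⟨c, hc, rfl⟩ _ ⟨c', hc', rfl⟩
    rw [← Subgroup.coe_mul, ← Subgroup.coe_mul, ← map_mul, ← map_mul, eich_comm hx hc hc']
  · refine lt_of_lt_of_le (by have := H.hq; omega) (Nat.card_le_card_of_injective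
      (fun s : F => (⟨_, s • d, by simp [pc h4], rfl⟩ : Qx H.toTenO hx)) fun s t e => ?_)
    have h8 := congrArg (fun g : Qx H.toTenO hx => polar Q (τ v d) (g.1 (τ v x'))) e
    simpa [H.rhom_apply, hx'.eich_apply_f, h4, h5, H.eq, hv, h6, H.two] using h8
  · rintro k hk _ ⟨c, hc, rfl⟩ h8 h9
    refine H.comm_of_stab (ne_zero_of_Q hv) hx hx0 hk (st hc (fun h10 => h8 ?_) h9)
    obtain ⟨s, rfl⟩ := Submodule.mem_span_singleton.1 (H.a₂ x c hx hx0 h10 hc)
    simp [eich_smul_self]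

/-- A map between two subspaces `v ⊗ W` with `v` nonsingular preserves the decomposition. -/
theorem sv {v w : U} (hv : P₁ v ≠ 0) (hw : P₁ w ≠ 0) {g : V ≃ₗ[F] V} (hg : g ∈ X)
    (hs : ∀ z, ∃ z', g (τ v z) = τ w z') : g ∈ Kron τ := by
  have := finiteDimensional h
  have := finite_equiv (F := F) (V := V)
  have hp : Fact (ringChar F).Prime := ⟨CharP.char_is_prime F _⟩
  obtain ⟨γ, hγ⟩ := exists_equiv (Ten.flip h) (ne_zero_of_Q hv) (ne_zero_of_Q hw) hs
  replace hγ : ∀ z, g (τ v z) = τ w (γ z) := hγ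
  have h4 : ∀ z z', polar P₂ (γ z) (γ z') = P₁ v / P₁ w * polar P₂ z z' := fun z z' => by
    have := H.pol hg (τ v z) (τ v z')
    rw [hγ, hγ, H.eq, H.eq, polar_self', polar_self'] at this
    field_simp
    exact mul_left_cancel₀ H.two (by linear_combination this)
  have h5 : ∀ z, P₂ (γ z) = P₁ v / P₁ w * P₂ z := fun z =>
    mul_left_cancel₀ H.two (by rw [← polar_self', h4, polar_self']; ring)
  have h6 : ∀ x, P₂ x = 0 → x ≠ 0 → ∀ a, g (τ (cP h P₂ x a) x) =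
      τ ((P₁ w / P₁ v) • cP h P₂ (γ x) (g a)) (γ x) := fun x hx hx0 a => by
    obtain ⟨x', hx'⟩ := H.n₂.exists_hyp hx hx0
    obtain ⟨d, h6, -, h7⟩ := hx'.exists_nonsingular H.n₂ H.hb
    have h8 : P₂ (γ x) = 0 := by simp [h5, hx]
    have h9 : polar P₂ (γ x) ((P₁ w / P₁ v) • γ d) = 0 := by simp [h4, pc h6]
    obtain ⟨h10, h11⟩ := H.cent h3 (p := ringChar F) hw h8 (by simpa using hx0)
    have h12 := pow_eich H.toTenO (p := ringChar F) h8 h9
    have h13 := pow_eich H.toTenO (p := ringChar F) hx (pc h6)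
    have h14 := H.right (eich_mem_E (γ x) ((P₁ w / P₁ v) • γ d))
    have h15 : (H.rhom (eich P₂ (γ x) ((P₁ w / P₁ v) • γ d))).1⁻¹ *
        (g * (H.rhom (eich P₂ x d)).1 * g⁻¹) ∈ Kv τ X w := by
      refine ⟨mul_mem (inv_mem h14) (mul_mem (mul_mem hg (H.right (eich_mem_E _ _))) (inv_mem hg)),
        fun z => ?_⟩
      obtain ⟨z, rfl⟩ := γ.surjective z
      rw [LinearEquiv.mul_apply, ← (H.rhom (eich P₂ (γ x) ((P₁ w / P₁ v) • γ d))).1.injective.eq_iff,
        apply_inv_apply, H.rhom_apply, ← hγ, LinearEquiv.mul_apply, LinearEquiv.mul_apply,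
        inv_apply_apply, H.rhom_apply, hγ]
      congr 1
      simp only [eich_ap h8 h9, eich_ap hx (pc h6), map_add, map_sub, map_smul, polar_smul_left,
        polar_smul_right, h4, h5, Q_smul, smul_eq_mul]
      match_scalars <;> field_simp
    have h16 := (h11 _ h15 _ ⟨_, h9, rfl⟩).symm.mul_pow (ringChar F)
    rw [mul_inv_cancel_left, conj_pow, h12, h13, one_mul, mul_one, mul_inv_cancel] at h16
    have h17 := eq_one_of_not_dvd h10 h15 h16.symm
    rw [inv_mul_eq_one, eq_mul_inv_iff_mul_eq] at h17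
    rw [stab_of_comm H.toTenO hx hx0 (pc h6) h7 h8 h9 h17.symm, Q_smul, h5]
    congr 3; field_simp
  obtain ⟨x, x', hx⟩ := H.n₂.exists_hyp_of_three H.hb
  obtain ⟨α, hα⟩ := exists_equiv h hx.e_ne (x₁ := γ x) (by simpa using hx.e_ne) (g := g)
    fun u => by
      have := h6 x hx.he hx.e_ne (τ u x')
      rw [cP_apply, hx.hef, one_smul] at this
      exact ⟨_, this⟩
  let A : AddSubgroup W :=
    { carrier := {z | ∀ u, g (τ u z) = τ (α u) (γ z)}
      add_mem' ha hb u := by simp [ha u, hb u]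
      zero_mem' u := by simp
      neg_mem' ha u := by simp [ha u] }
  refine ⟨α, γ, fun u z => sing_span H.n₂ hx.he hx.e_ne A (fun t u => by simp [hα])
    (fun y hy hxy u => ?_) z u⟩
  have h7 := h6 y hy (ne_zero_of_polar (polar_comm P₂ x y ▸ hxy)) (τ u x)
  rw [hα, cP_apply, cP_apply, h4, smul_smul, polar_comm, map_smul, map_smul, LinearMap.smul_apply,
    LinearMap.smul_apply, map_smul] at h7
  refine smul_right_injective V hxy (h7.trans ?_)
  congr 1; field_simp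

end O2

end CfsgLib.C7O
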