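import Mathlib
import Cfsg.Agent.Lib.C7O.Sv
import Cfsg.Agent.Lib.OMax.TenO3

/-!
Tensor products of two orthogonal spaces of Witt index one: the involutions with an axis.
-/

set_option autoImplicit false
set_option linter.unusedSectionVars false

namespace CfsgLib.C7O

open Module CfsgLib.ClMax CfsgLib.ClMax.Ten CfsgLib.OrthE CfsgLib.OMax QuadraticMap

variable {F U W V : Type*} [Field F] [AddCommGroup U] [Module F U] [AddCommGroup W]
  [Module F W] [AddCommGroup V] [Module F V] {τ : U →ₗ[F] W →ₗ[F] V}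
  {P₁ : QuadraticForm F U} {P₂ : QuadraticForm F W} {Q : QuadraticForm F V}
  {h : IsTensorProduct τ} [FiniteDimensional F U] [FiniteDimensional F W]

theorem inv3 (h3 : finrank F U = 3) {α : End F U} (hα : ∀ u, α (α u) = u) :
    ∃ (ε : F) (w : U) (φ : Dual F U), (ε = 1 ∨ ε = -1) ∧ (w = 0 ∨ φ w = 2) ∧
      ∀ u, ε • α u = φ u • w - u := by
  have k : ∀ α : End F U, (∀ u, α (α u) = u) → finrank F (LinearMap.range (α + 1)) ≤ 1 →
      ∃ (w : U) (φ : Dual F U), (w = 0 ∨ φ w = 2) ∧ ∀ u, α u = φ u • w - u := fun α hα h1 => by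
    obtain ⟨⟨_, v, rfl⟩, hv⟩ := finrank_le_one_iff.1 h1
    have h2 : ∀ u, ∃ c : F, c • (α v + v) = α u + u := fun u =>
      let ⟨c, hc⟩ := hv ⟨_, u, rfl⟩; ⟨c, congrArg Subtype.val hc⟩
    by_cases h0 : α v + v = 0
    · exact ⟨0, 0, Or.inl rfl, fun u => by
        obtain ⟨c, hc⟩ := h2 u
        simpa [h0, add_eq_zero_iff_eq_neg] using hc.symm⟩
    obtain ⟨ψ, hψ⟩ := Projective.exists_dual_eq_one F h0
    refine ⟨α v + v, ψ ∘ₗ (α + 1), Or.inr ?_, fun u => ?_⟩
    · simp only [LinearMap.comp_apply, LinearMap.add_apply, End.one_apply, map_add, hα] at hψ ⊢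
      linear_combination 2 * hψ
    · obtain ⟨c, hc⟩ := h2 u
      rw [LinearMap.comp_apply, LinearMap.add_apply, End.one_apply, ← hc, map_smul, hψ, smul_eq_mul,
        mul_one, hc, add_sub_cancel_right]
  have h1 := LinearMap.finrank_range_add_finrank_ker (α + 1)
  have h2 : finrank F (LinearMap.range (-α + 1)) ≤ finrank F (LinearMap.ker (α + 1)) :=
    Submodule.finrank_mono (by rintro _ ⟨u, rfl⟩; simp [hα])
  by_cases h4 : finrank F (LinearMap.range (α + 1)) ≤ 1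
  · obtain ⟨w, φ, h5, h6⟩ := k α hα h4
    exact ⟨1, w, φ, Or.inl rfl, h5, by simpa using h6⟩
  · obtain ⟨w, φ, h5, h6⟩ := k (-α) (by simp [hα]) (by omega)
    exact ⟨-1, w, φ, Or.inr rfl, h5, by simpa using h6⟩

theorem kron_inv (h : IsTensorProduct τ) (h3 : finrank F U = 3) [Nontrivial W] {b : V ≃ₗ[F] V}
    (hK : b ∈ Kron τ) (hb : b * b = 1) : ∃ (w : U) (φ : Dual F U) (β : End F W),
      (∀ z, β (β z) = z) ∧ (w = 0 ∨ φ w = 2) ∧ ∀ u z, b (τ u z) = τ (φ u • w - u) (β z) := by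
  obtain ⟨α, β, e⟩ := hK
  have h1 : ∀ u z, τ (α (α u)) (β (β z)) = τ u z := fun u z => by
    rw [← e, ← e, ← LinearEquiv.mul_apply, hb]; rfl
  obtain ⟨z₀, hz⟩ := exists_ne (0 : W)
  obtain ⟨c, hc⟩ := scalar_of_forall_mem_span (f := (α : End F U) * (α : End F U)) fun u =>
    mem_span_of_eq h (by simpa using hz) (h1 u z₀)
  have h2 : LinearMap.det (α : End F U) * LinearMap.det (α : End F U) = c ^ 3 := by
    rw [← map_mul, show (α : End F U) * (α : End F U) = c • 1 from LinearMap.ext hc, LinearMap.det_smul, h3]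
    simp
  have h4 := α.isUnit_det'.ne_zero
  generalize LinearMap.det (α : End F U) = d at h2 h4
  have h5 : c ≠ 0 := by rintro rfl; simp [h4] at h2
  replace hc : ∀ u, α (α u) = c • u := hc
  obtain ⟨ε, w, φ, hε, h6, h7⟩ := inv3 h3 (α := (c / d) • (α : End F U)) fun u => by
    simp only [LinearMap.smul_apply, map_smul, LinearEquiv.coe_coe, hc, smul_smul]
    rw [show c / d * (c / d * c) = 1 by field_simp; linear_combination -h2, one_smul]
  have h8 : ε * ε = 1 := by rcases hε with rfl | rfl <;> simp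
  have : Nontrivial U := nontrivial_of_finrank_pos (R := F) (by omega)
  obtain ⟨u₀, hu⟩ := exists_ne (0 : U)
  refine ⟨w, φ, (ε * d / c) • (β : End F W), fun z => right_inj h hu ?_, h6, fun u z => ?_⟩
  · rw [← h1 u₀ z, hc]
    simp only [LinearMap.smul_apply, map_smul, LinearEquiv.coe_coe, smul_smul]
    congr 1; field_simp; linear_combination ε * ε * h2 + c ^ 3 * h8
  · rw [e, ← h7]
    simp only [LinearMap.smul_apply, map_smul, LinearEquiv.coe_coe, smul_smul]
    rw [show ε * d / c * (ε * (c / d)) = 1 by field_simp; linear_combination h8, one_smul]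

variable (τ P₁) in
/-- The involution of the left factor with axis `w`. -/
def Ax (w : U) (b : V ≃ₗ[F] V) : Prop :=
  P₁ w ≠ 0 ∧ ∀ u z, b (τ u z) = -τ ((refl P₁ w).1 u) z

namespace Ax

variable {v : U} {a : V ≃ₗ[F] V} (ha : Ax τ P₁ v a)
include ha

theorem fix (z : W) : a (τ v z) = τ v z := by simp [ha.2, refl_apply_self ha.1]

theorem neg {u : U} (hu : polar P₁ v u = 0) (z : W) : a (τ u z) = -τ u z := by
  simp [ha.2, refl_ap, hu]

theorem add (h : IsTensorProduct τ) (x : V) :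
    a x + x = τ v ((P₁ v)⁻¹ • cL h (polarBilin P₁ v) x) := by
  induction x using h.inductionOn with
  | zero => simp
  | add x y hx hy => simp only [map_add, smul_add, ← hx, ← hy]; abel
  | tmul u z => simp [ha.2, refl_ap, smul_smul]

theorem eq_tau (h : IsTensorProduct τ) (h2 : (2 : F) ≠ 0) {x : V} (hx : a x = x) :
    ∃ z, x = τ v z :=
  ⟨_, by rw [map_smul (τ v) (2 : F)⁻¹, ← ha.add h x, hx, ← two_smul F, inv_smul_smul₀ h2]⟩

theorem kron : a ∈ Kron τ := ⟨(refl P₁ v).1, LinearEquiv.neg F, fun u z => by simp [ha.2]⟩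

theorem sq (h : IsTensorProduct τ) : a * a = 1 := equiv_ext h fun u z => by
  simp [ha.2, ← O_mul_apply, refl_mul_self]

theorem phi (h : IsTensorProduct τ) (h2 : (2 : F) ≠ 0) (g : V ≃ₗ[F] V) : ∃ Φ : V →ₗ[F] W,
    ∀ x, (g * a * g⁻¹) x = x → Φ x = 0 → x = 0 := by
  refine ⟨cL h (polarBilin P₁ v) ∘ₗ (g⁻¹ : V ≃ₗ[F] V), fun x h1 h3 => ?_⟩
  obtain ⟨x, rfl⟩ := g.surjective x
  obtain ⟨z, rfl⟩ := ha.eq_tau h h2 (x := x) (by simpa using h1)
  simp_all [ha.1]

end Ax

theorem ax_of (H : TenO P₁ P₂ Q h) [Nontrivial W] {b : V ≃ₗ[F] V} (hO : b ∈ O Q) {w : U}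
    {φ : Dual F U} (hw : φ w = 2) (e : ∀ u z, b (τ u z) = τ (φ u • w - u) z) : Ax τ P₁ w b := by
  obtain ⟨z, hz⟩ := exists_ne (0 : W)
  obtain ⟨z', hz'⟩ : ∃ z', polar P₂ z z' ≠ 0 := by
    by_contra! h1; exact hz (H.n₂ z h1)
  have h1 : ∀ u, φ u * P₁ w = polar P₁ w u := fun u => by
    have := O_polar ⟨b, hO⟩ (τ w z) (τ u z')
    simp only [e, H.eq, hw, polar_sub_left, polar_sub_right, polar_smul_left, polar_smul_right,
      polar_self', smul_eq_mul] at this
    exact mul_left_cancel₀ (mul_ne_zero H.two hz') (by linear_combination this)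
  have h2 : P₁ w ≠ 0 := fun h2 => H.two (by
    rw [← hw, H.n₁ w fun u => by rw [← h1, h2, mul_zero], map_zero])
  exact ⟨h2, fun u z => by simp [e, refl_ap, ← h1, h2, mul_comm (φ u)]⟩

theorem rec1 (H : TenO P₁ P₂ Q h) (h3 : finrank F U = 3) [Nontrivial W] {b : V ≃ₗ[F] V}
    (hO : b ∈ O Q) (hK : b ∈ Kron τ) (hb : b * b = 1) {Φ : V →ₗ[F] W}
    (hΦ : ∀ x, b x = x → Φ x = 0 → x = 0) : (∃ w, Ax τ P₁ w b) ∨
      ∃ β : End F W, (∀ z, β (β z) = z) ∧ ∀ u z, b (τ u z) = τ u (β z) := by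
  obtain ⟨w, φ, β, h1, rfl | hw, e⟩ := kron_inv h h3 hK hb
  · exact Or.inr ⟨-β, by simp [h1], by simp [e]⟩
  have h2 := H.two
  refine Or.inl ⟨w, ax_of H hO hw fun u z => ?_⟩
  obtain ⟨u₁, h4, h5, -⟩ := exists_ker_two h3.ge φ φ
  obtain ⟨ψ, h6, h7, h8⟩ := exists_ann_two h3.ge w u₁
  obtain ⟨u₂, h9, h10⟩ := exists_vec_one_zero (φ := ψ) (ψ := φ) fun h9 => by
    obtain ⟨c, rfl⟩ := Submodule.mem_span_singleton.1 h9
    simp_all
  let L : W →ₗ[F] V := τ w ∘ₗ (1 + β) + τ u₁ ∘ₗ (1 - β)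
  have hL : ∀ z, b (L z) = L z := fun z => by
    simp only [L, LinearMap.add_apply, LinearMap.comp_apply, LinearMap.sub_apply, End.one_apply,
      map_add, map_sub, map_smul, e, hw, h5, h1, LinearMap.smul_apply]
    module
  obtain ⟨z', h11⟩ := LinearMap.injective_iff_surjective.1 ((injective_iff_map_eq_zero
    (Φ ∘ₗ L)).2 fun z hz => by
      have h11 := hΦ _ (hL z) hz
      have h12 := congrArg (cL h φ) h11
      simp only [L, LinearMap.add_apply (τ w ∘ₗ _), LinearMap.comp_apply] at h11 h12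
      simp only [map_add, cL_apply, hw, h5, zero_smul, add_zero, map_zero, smul_eq_zero, h2,
        false_or] at h12
      rw [h12, map_zero, zero_add] at h11
      have h13 := right_inj h h4 (h11.trans (map_zero _).symm)
      refine (smul_eq_zero.1 (?_ : (2 : F) • z = 0)).resolve_left h2
      simp only [End.one_apply, LinearMap.sub_apply, LinearMap.add_apply] at h12 h13
      linear_combination (norm := module) h12 + h13) (Φ (τ u₂ (z - β z)))
  have h12 := congrArg (cL h ψ) (hΦ (L z' - τ u₂ (z - β z)) (by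
    rw [map_sub, hL, e]; simp [h10, h1]) (by rw [map_sub, ← h11]; simp))
  simp [L, h7, h8, h9, sub_eq_zero] at h12
  rw [e, h12]

namespace O2

variable {X : Subgroup (V ≃ₗ[F] V)} (H : O2 P₁ P₂ Q h X) [Finite F] (h3 : finrank F U = 3)
include H h3

theorem rig {v w : U} {a g : V ≃ₗ[F] V} (hg : g ∈ X) (ha : Ax τ P₁ v a)
    (hb : Ax τ P₁ w (g * a * g⁻¹)) : g ∈ Kron τ :=
  H.sv h3 ha.1 hb.1 hg fun z => hb.eq_tau h H.two (by simp [ha.fix])

theorem rig4 (h4 : finrank F W = 4) {v : U} {a g : V ≃ₗ[F] V} (hg : g ∈ X) (ha : Ax τ P₁ v a)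
    (hX : a ∈ X) (hb : g * a * g⁻¹ ∈ Kron τ) : g ∈ Kron τ := by
  have : Nontrivial W := nontrivial_of_finrank_pos (R := F) (by omega)
  have := finiteDimensional h
  obtain ⟨Φ, hΦ⟩ := ha.phi h H.two g
  obtain ⟨w, hw⟩ | ⟨β, h1, e⟩ := rec1 H.toTenO h3 (H.hX (mul_mem (mul_mem hg hX) (inv_mem hg))) hb
    (by rw [conj_mul, ha.sq h]; simp) hΦ
  · exact H.rig h3 hg ha hw
  have h5 : ∀ z, (g * a * g⁻¹) (g (τ v z)) = g (τ v z) := fun z => by simp [ha.fix]
  generalize g * a * g⁻¹ = b at hΦ e h5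
  have h6 := finrank_mul_le h (LinearMap.range (β + 1)) Φ (LinearMap.eqLocus (b : End F V) 1)
    (by rintro u _ ⟨z, rfl⟩; simp [e, h1, add_comm]) hΦ
  have h7 := finrank_mul_le h (LinearMap.ker (β + 1)) (LinearMap.range ((g : End F V) ∘ₗ τ v)).mkQ
    (LinearMap.eqLocus (b : End F V) (-1)) (fun u z hz => by
      simp [e, eq_neg_of_add_eq_zero_left hz]) fun x h7 h8 => by
      obtain ⟨z, rfl⟩ := (Submodule.Quotient.mk_eq_zero _).1 h8
      exact (smul_eq_zero.1 ((two_smul F _).trans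
        (add_eq_zero_iff_eq_neg.2 ((h5 z).symm.trans h7)))).resolve_left H.two
  have h8 := Submodule.finrank_quotient_add_finrank (LinearMap.range ((g : End F V) ∘ₗ τ v))
  rw [LinearMap.finrank_range_of_inj fun _ _ e =>
    right_inj h (ne_zero_of_Q ha.1) (g.injective e), finrank_eq h] at h8
  have h9 := LinearMap.finrank_range_add_finrank_ker (β + 1)
  rw [h3, h4] at *
  omega

end O2

end CfsgLib.C7O
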