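import Mathlib
import Cfsg.Agent.Lib.C7O.Inv

/-!
Tensor products of two orthogonal spaces of Witt index one: existence of involutions with an axis.
-/

set_option autoImplicit false
set_option linter.unusedSectionVars false

namespace CfsgLib.C7O

open Module CfsgLib.ClMax CfsgLib.ClMax.Ten CfsgLib.OrthE CfsgLib.OMax QuadraticMap

variable {F U W V : Type*} [Field F] [AddCommGroup U] [Module F U] [AddCommGroup W]
  [Module F W] [AddCommGroup V] [Module F V] {τ : U →ₗ[F] W →ₗ[F] V}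
  {P₁ : QuadraticForm F U} {P₂ : QuadraticForm F W} {Q : QuadraticForm F V}
  {h : IsTensorProduct τ} [FiniteDimensional F U] [FiniteDimensional F W]

theorem refl_mem_E [Finite F] (hP : Nondeg P₁) (h3 : 3 ≤ finrank F U) {a b : U} (ha : P₁ a ≠ 0)
    {t : F} (ht : t ≠ 0) (hab : P₁ b = t * t * P₁ a) : refl P₁ a * refl P₁ b ∈ E P₁ :=
  let ⟨_, _, hu⟩ := hP.exists_hyp_of_three h3
  hu.commutator_le_E hP (hu.exists_nonsingular hP h3) (refl_mul_refl_mem hP ha ht hab)

theorem E_perf [Finite F] (hP : Nondeg P₁) (h3 : 3 ≤ finrank F U) {t : F} (ht : t ≠ 0)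
    (ht' : t * t ≠ 1) : E P₁ ≤ ⁅E P₁, E P₁⁆ := by
  have k : ∀ {e f}, Hyp P₁ e f → ∀ w, polar P₁ w e = 0 → polar P₁ w f = 0 →
      eich P₁ e w ∈ ⁅E P₁, E P₁⁆ := fun {e f} hu w h1 h2 => by
    have h4 := refl_mem_E hP h3 (a := f + (t * t) • e) (b := f + (1 : F) • e) (t := t⁻¹)
      (by simp [Q_add, Q_smul, hu.he, hu.hf, hu.hfe, ht]) (inv_ne_zero ht)
      (by simp [Q_add, Q_smul, hu.he, hu.hf, hu.hfe]; field_simp)
    rw [hu.refl_mul_refl (mul_ne_zero ht ht) one_ne_zero, inv_one, mul_one] at h4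
    have h5 := Subgroup.commutator_mem_commutator h4 (eich_mem_E e ((t * t - 1)⁻¹ • w))
    rwa [commutatorElement_def, hu.conj_tor_eich (mul_ne_zero ht ht) (by simp [h1]) (by simp [h2]),
      ← eich_neg, eich_mul hu.he (by simp [pc h1]) (by simp [pc h1]), ← sub_eq_add_neg, smul_smul,
      ← sub_smul, ← sub_one_mul, mul_inv_cancel₀ (sub_ne_zero.2 ht'), one_smul] at h5
  obtain ⟨e, f, hu⟩ := hP.exists_hyp_of_three h3
  exact hu.E_le hP (hu.exists_nonsingular hP h3) _ (k hu) fun w h1 h2 => k hu.symm w h2 h1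

theorem det_E [Finite F] (hP : Nondeg P₁) (h3 : 3 ≤ finrank F U) {t : F} (ht : t ≠ 0)
    (ht' : t * t ≠ 1) {k : O P₁} (hk : k ∈ E P₁) : LinearMap.det (k.1 : End F U) = 1 :=
  (LinearEquiv.coe_det _).symm.trans (congrArg Units.val (Abelianization.commutator_subset_ker
    (LinearEquiv.det.comp (O P₁).subtype)
    (Subgroup.commutator_mono le_top le_top (E_perf hP h3 ht ht' hk))))

theorem ax_of_det (H : TenO P₁ P₂ Q h) (h3 : finrank F U = 3) [Nontrivial W] {b : V ≃ₗ[F] V}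
    (hO : b ∈ O Q) {α : End F U} (hα : LinearMap.det α = 1) (e : ∀ u z, b (τ u z) = τ (α u) z)
    (hb : b * b = 1) (hb' : b ≠ 1) : ∃ w, Ax τ P₁ w b := by
  obtain ⟨z, hz⟩ := exists_ne (0 : W)
  have h2 : (-1 : F) ≠ 1 := fun e => H.two (by linear_combination -e)
  obtain ⟨ε, w, φ, rfl | rfl, h4, h5⟩ := inv3 h3 (α := α) fun u => left_inj h hz (by
    rw [← e, ← e, ← LinearEquiv.mul_apply, hb]; rfl)
  · rcases h4 with rfl | h4
    · rw [show α = (-1 : F) • 1 from LinearMap.ext (by simpa using h5), LinearMap.det_smul, h3,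
        map_one] at hα
      exact absurd (by linear_combination hα) h2
    · exact ⟨w, ax_of H hO h4 fun u z => by rw [e, ← h5, one_smul]⟩
  · have h6 : ∀ u, α u = u - φ u • w := fun u => by linear_combination (norm := module) -h5 u
    rcases h4 with rfl | h4
    · exact absurd (equiv_ext h fun u z => by simp [e, h6]) hb'
    · rw [show α = LinearMap.transvection (-φ) w from LinearMap.ext fun u => by
        simp [h6, LinearMap.transvection, sub_eq_add_neg], LinearMap.transvection.det] at hα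
      exact absurd (by rw [LinearMap.neg_apply, h4] at hα; linear_combination hα) h2

theorem refl_comm {a b : U} (hab : polar P₁ a b = 0) : Commute (refl P₁ a) (refl P₁ b) :=
  mul_inv_eq_iff_eq_mul.1 (by rw [conj_refl, refl_apply_of_orth (pc hab)])

theorem Ax.comm {v w : U} {a b : V ≃ₗ[F] V} (ha : Ax τ P₁ v a) (hb : Ax τ P₁ w b)
    (h : IsTensorProduct τ) (hvw : polar P₁ v w = 0) : Commute a b := equiv_ext h fun u z => by
  simp only [LinearEquiv.mul_apply, ha.2, hb.2, map_neg]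
  rw [← O_mul_apply, (refl_comm hvw).eq, O_mul_apply]

theorem Ax.ne {v w : U} {a b : V ≃ₗ[F] V} (ha : Ax τ P₁ v a) (hb : Ax τ P₁ w b)
    (h : IsTensorProduct τ) (h2 : (2 : F) ≠ 0) [Nontrivial W] (hvw : polar P₁ v w = 0) : a ≠ b := by
  rintro rfl
  obtain ⟨z, hz⟩ := exists_ne (0 : W)
  exact ne_zero h (ne_zero_of_Q hb.1) hz ((smul_eq_zero.1 ((two_smul F _).trans
    (add_eq_zero_iff_eq_neg.2 ((hb.fix z).symm.trans (ha.neg hvw z))))).resolve_left h2)

theorem Ax.ex [Finite F] (H : TenO P₁ P₂ Q h) (h3 : 3 ≤ finrank F U) {v : U} {a : V ≃ₗ[F] V}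
    (ha : Ax τ P₁ v a) : ∃ w, ∃ k ∈ E P₁, polar P₁ v w = 0 ∧ Ax τ P₁ w (a * (H.flip.rhom k).1) := by
  obtain ⟨w, -, h1, h2⟩ := exists_norm_polar H.n₁ H.two (nd_top H.n₁) (by simpa) trivial ha.1
    (P₁ v) 0
  exact ⟨w, _, refl_mem_E H.n₁ h3 ha.1 one_ne_zero (b := w) (by simp [h1]), h2, h1 ▸ ha.1,
    fun u z => by
      rw [LinearEquiv.mul_apply, H.lhom_apply, ha.2, ← O_mul_apply, ← mul_assoc, refl_mul_self,
        one_mul]⟩

theorem O1.exists_ax [Finite F] {X : Subgroup (V ≃ₗ[F] V)} (H : O1 P₁ P₂ Q h X)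
    (h3 : finrank F U = 3) : ∃ k ∈ E P₁, ∃ w, Ax τ P₁ w (H.flip.rhom k).1 := by
  have : Nontrivial W := nontrivial_of_finrank_pos (R := F) (by have := H.hb; omega)
  obtain ⟨t, ht, ht'⟩ := H.exists_t
  obtain ⟨a, -, ha⟩ := exists_nonsing H.n₁ (S := ⊤) (by simp [h3])
  obtain ⟨b, -, h1, h2⟩ := exists_norm_polar H.n₁ H.two (nd_top H.n₁) (by simp [h3]) trivial ha
    (P₁ a) 0
  have h4 := refl_mem_E H.n₁ H.ha ha one_ne_zero (b := b) (by simp [h1])
  refine ⟨_, h4, ax_of_det H.toTenO h3 (Subtype.prop _) (det_E H.n₁ H.ha ht ht' h4)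
    (H.lhom_apply _) ?_ fun e => ?_⟩
  · rw [← Subgroup.coe_mul, ← map_mul, (refl_comm h2).symm.mul_mul_mul_comm, refl_mul_self,
      refl_mul_self]
    simp
  · obtain ⟨z, hz⟩ := exists_ne (0 : W)
    have h5 := H.lhom_apply (refl P₁ a * refl P₁ b) a z
    rw [e, O_mul_apply, refl_apply_of_orth h2, refl_apply_self ha] at h5
    exact ne_zero_of_Q ha ((smul_eq_zero.1 ((two_smul F _).trans
      (add_eq_zero_iff_eq_neg.2 (left_inj h hz h5)))).resolve_left H.two)

end CfsgLib.C7O
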