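import Mathlib
import Cfsg.Agent.Lib.C7.Dih

/-!
Rigid families of involutions: products of two members in different slots.
-/

set_option autoImplicit false

namespace CfsgLib.C7O

open CfsgLib.C7

variable {G : Type*} [Group G] {ι : Type*} {H : Subgroup G} {R : ι → G → Prop}

theorem cj_conj {y : G} (hy : Cj R y) (g : G) : Cj R (g * y * g⁻¹) := by
  obtain ⟨j, x, k, h, rfl⟩ := hy
  exact ⟨j, x, g * k, h, by group⟩

variable (D : DH H R) [Finite G]
include D

theorem dh_mem {y : G} (hy : Cj R y) (hH : y ∈ H) : ∃ i, R i y := by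
  obtain ⟨j, x, k, h, rfl⟩ := hy
  exact D.conj h (D.rig h hH)

theorem dh_cent (disj : ∀ {i j x}, R i x → R j x → i = j) {i j : ι} {a b : G} (hij : i ≠ j)
    (ha : R i a) (hb : R j b) {g : G} (hc : Commute (a * b) g) : g ∈ H := by
  by_contra hg
  have hab := D.comm hij ha hb
  have hy : Cj R (g * a * g⁻¹) := ⟨i, a, g, ha, rfl⟩
  have hH : g * a * g⁻¹ ∉ H := fun h => hg (D.rig ha h)
  have c0 : Commute (a * b) a := (Commute.refl a).mul_left hab.symm
  have c1 : Commute (a * b) (g * a * g⁻¹) := (hc.mul_right c0).mul_right hc.inv_right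
  generalize g * a * g⁻¹ = y at hy hH c1
  have k : ∀ {t}, R i t → Commute (a * b) t → ∃ w, Commute (a * b) w ∧ w * w = 1 ∧ w * t * w = y :=
    fun ht c => by
      obtain ⟨w, h1, h2, h3⟩ := D.exists_swap ht hy (D.odd ht hy hH)
      refine ⟨w, Subgroup.mem_centralizer_singleton_iff.1 ((Subgroup.closure_le
        (Subgroup.centralizer {a * b})).2 ?_ h1) |>.symm, D.cj_sq h2, h3⟩
      rintro _ (rfl | rfl)
      exacts [Subgroup.mem_centralizer_singleton_iff.2 c.eq.symm,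
        Subgroup.mem_centralizer_singleton_iff.2 c1.eq.symm]
  obtain ⟨e, he, hne, hce⟩ := D.ex ha
  obtain ⟨w, h1, h2, h3⟩ := k ha c0
  obtain ⟨w', h4, h5, h6⟩ := k he (hce.symm.mul_left (D.comm hij he hb).symm)
  have h7 : w' * w * a * (w' * w)⁻¹ = e := by
    rw [mul_inv_rev, inv_eq_of_mul_eq_one_right h2, inv_eq_of_mul_eq_one_right h5,
      mul_assoc w', mul_assoc w', ← mul_assoc _ w, h3, ← h6]
    simp only [mul_assoc, ← mul_assoc w' w', h5, one_mul, mul_one]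
  obtain ⟨l, hl⟩ := D.conj hb (D.rig ha (h7 ▸ D.mem he))
  rcases D.uniq hij ha hb hl he (by
    rw [← h7, conj_mul, ← hab.eq, ← (h4.mul_right h1).eq, mul_inv_cancel_right]) with h | h
  · exact hne h
  · exact hij (disj he (h ▸ hb))

theorem dh_final (mul : ∀ {i x y}, R i x → R i y → x ≠ y → Commute x y → R i (x * y))
    {i j : ι} {x x' : G} (hx : R i x) (hx' : R j x')
    (ev : ∀ k ∈ H, k * x * k⁻¹ = x' → Even (orderOf k)) {g : G} (hg : g ∉ H) :
    ∃ h ∉ H, ∃ l l' r r', l ≠ l' ∧ R l r ∧ R l' r' ∧ h * (r * r') * h⁻¹ ∈ H := by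
  have hy : Cj R (g * x * g⁻¹) := ⟨i, x, g, hx, rfl⟩
  have hH : g * x * g⁻¹ ∉ H := fun h => hg (D.rig hx h)
  generalize g * x * g⁻¹ = y at hy hH
  obtain ⟨w, -, h2, h3⟩ := D.exists_swap hx hy (D.odd hx hy hH)
  obtain ⟨w', -, h5, h6⟩ := D.exists_swap hx' hy (D.odd hx' hy hH)
  have s1 := D.cj_sq h2
  have s2 := D.cj_sq h5
  have e : w' * w * x * (w' * w)⁻¹ = x' := by
    rw [mul_inv_rev, inv_eq_of_mul_eq_one_right s1, inv_eq_of_mul_eq_one_right s2,
      mul_assoc w', mul_assoc w', ← mul_assoc _ w, h3, ← h6]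
    simp only [mul_assoc, ← mul_assoc w' w', s2, one_mul, mul_one]
  have hk := D.rig hx (e ▸ D.mem hx')
  obtain ⟨m, hm⟩ := ev _ hk e
  have hi : w * (w' * w) * w = (w' * w)⁻¹ := by
    rw [mul_inv_rev, inv_eq_of_mul_eq_one_right s1, inv_eq_of_mul_eq_one_right s2, mul_assoc,
      mul_assoc, s1, mul_one]
  have hw' : w' = w' * w * w := by rw [mul_assoc, s1, mul_one]
  have hi' := mul_inv_of_sq s2 s1
  generalize w' * w = k at hk hm hi hw' hi'
  have cj : ∀ {v}, v * v = 1 → v * k * v = k⁻¹ → ∀ n : ℕ, k ^ n * v * (k ^ n)⁻¹ = k ^ (2 * n) * v :=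
    fun {v} h1 h2 n => by
      have := inv_zpow_of_inv h1 h2 n
      rw [zpow_natCast] at this
      rw [← this, two_mul, pow_add]
      simp only [mul_assoc, ← mul_assoc v v, h1, one_mul]
  have h7 : Cj R (k ^ m * w) := by
    obtain ⟨n, rfl | rfl⟩ := Nat.even_or_odd' m
    · exact cj s1 hi n ▸ cj_conj h2 _
    · rw [pow_succ, mul_assoc, ← hw']; exact cj s2 hi' n ▸ cj_conj h5 _
  have z2 : k ^ m * k ^ m = 1 := by rw [← pow_add, ← hm, pow_orderOf_eq_one]
  have z1 : k ^ m ≠ 1 := pow_ne_one_of_lt_orderOf (by have := orderOf_pos k; omega)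
    (by have := orderOf_pos k; omega)
  have c1 : w * k ^ m * w = k ^ m := by
    have := inv_zpow_of_inv s1 hi m
    rwa [zpow_natCast, inv_eq_of_mul_eq_one_right z2] at this
  have hz := H.pow_mem hk m
  generalize k ^ m = z at h7 z2 z1 c1 hz
  obtain ⟨l, r, h, hr, rfl⟩ := h2
  have hh : h ∉ H := fun h8 => hH (h3 ▸ mul_mem (mul_mem (mul_mem (mul_mem h8 (D.mem hr))
    (inv_mem h8)) (D.mem hx)) (mul_mem (mul_mem h8 (D.mem hr)) (inv_mem h8)))
  have h8 := cj_conj h7 h⁻¹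
  have h9 : h * (r * (h⁻¹ * (z * (h * r * h⁻¹)) * h⁻¹⁻¹)) * h⁻¹ = z := by
    conv_rhs => rw [← c1]
    group
  generalize h⁻¹ * (z * (h * r * h⁻¹)) * h⁻¹⁻¹ = r' at h8 h9
  have h10 : r * r' * (r * r') = 1 := by
    rw [← h9, conj_mul] at z2
    simpa using z2
  have h11 : r * r' ≠ 1 := fun h11 => z1 (by simp [← h9, h11])
  obtain ⟨l', hr'⟩ := dh_mem D h8 (by
    by_contra h12
    have := D.odd hr h8 h12
    rw [orderOf_eq_prime (p := 2) (by rwa [pow_two]) h11] at this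
    exact absurd this (by decide))
  by_cases hl : l = l'
  · subst hl
    refine absurd (D.rig (mul hr hr' (fun e => h11 (e ▸ D.sq hr)) ?_) (h9 ▸ hz)) hh
    have := mul_inv_of_sq (D.sq hr) (D.sq hr')
    rw [inv_eq_of_mul_eq_one_right h10, ← mul_assoc, D.sq hr, one_mul] at this
    exact this.symm
  · exact ⟨h, hh, l, l', r, r', hl, hr, hr', h9 ▸ hz⟩

end CfsgLib.C7O
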