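import Mathlib
import Cfsg.Agent.Lib.C7O.Ax

/-!
Two decompositions as a tensor product of orthogonal spaces of Witt index one.
-/

set_option autoImplicit false
set_option linter.unusedSectionVars false

namespace CfsgLib.C7O

open Module CfsgLib.ClMax CfsgLib.ClMax.Ten CfsgLib.OrthE CfsgLib.OMax QuadraticMap

variable {F U W U' W' V : Type*} [Field F] [AddCommGroup U] [Module F U] [AddCommGroup W]
  [Module F W] [AddCommGroup U'] [Module F U'] [AddCommGroup W'] [Module F W'] [AddCommGroup V]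
  [Module F V] {τ : U →ₗ[F] W →ₗ[F] V} {τ' : U' →ₗ[F] W' →ₗ[F] V}
  {P₁ : QuadraticForm F U} {P₂ : QuadraticForm F W} {P₁' : QuadraticForm F U'}
  {P₂' : QuadraticForm F W'} {Q : QuadraticForm F V} {h : IsTensorProduct τ}
  {h' : IsTensorProduct τ'} [FiniteDimensional F U] [FiniteDimensional F W]
  [FiniteDimensional F U'] [FiniteDimensional F W']

theorem exists_equiv2 (h : IsTensorProduct τ) (h' : IsTensorProduct τ')
    (hd : finrank F U = finrank F U') {x : W} {x₁ : W'} (hx0 : x ≠ 0) (hx1 : x₁ ≠ 0)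
    {g : V ≃ₗ[F] V} (hs : ∀ u, ∃ u', g (τ u x) = τ' u' x₁) :
    ∃ α : U ≃ₗ[F] U', ∀ u, g (τ u x) = τ' (α u) x₁ := by
  obtain ⟨θ₀, hθ₀⟩ := Projective.exists_dual_eq_one F hx1
  let α₀ : U →ₗ[F] U' := cR h' θ₀ ∘ₗ (g : V →ₗ[F] V) ∘ₗ τ.flip x
  have hα₀ : ∀ u, g (τ u x) = τ' (α₀ u) x₁ := fun u => by
    obtain ⟨u', hu'⟩ := hs u
    simp [α₀, hu', hθ₀]
  exact ⟨α₀.linearEquivOfInjective (fun a b e => left_inj h hx0 (g.injective (by
    rw [hα₀, hα₀, e]))) hd, hα₀⟩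

theorem stab_of_comm2 (H : TenO P₁ P₂ Q h) (H' : TenO P₁' P₂' Q h') {x c : W} (hx : P₂ x = 0)
    (hc : polar P₂ x c = 0) (hc0 : P₂ c ≠ 0) {x₁ c₁ : W'} (hx₁ : P₂' x₁ = 0)
    (hc₁ : polar P₂' x₁ c₁ = 0) {k : V ≃ₗ[F] V}
    (hk : k * (H.rhom (eich P₂ x c)).1 = (H'.rhom (eich P₂' x₁ c₁)).1 * k) (v : V) :
    k (τ (cP h P₂ x v) x) = τ' ((P₂' c₁ / P₂ c) • cP h' P₂' x₁ (k v)) x₁ := by
  have e : ∀ v, k ((H.rhom (eich P₂ x c)).1 v) = (H'.rhom (eich P₂' x₁ c₁)).1 (k v) :=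
    LinearEquiv.congr_fun hk
  have h1 := congrArg k (sq_eich H hx hc v)
  rw [map_sub, e, map_sub, e, sq_eich H' hx₁ hc₁, map_smul] at h1
  refine smul_right_injective V (neg_ne_zero.2 (mul_ne_zero H.two hc0)) ?_
  simp only [← h1, map_smul, LinearMap.smul_apply, smul_smul]
  congr 1; field_simp

theorem Ax.conj (H' : TenO P₁' P₂' Q h') [Nontrivial W'] {v : U} {a g : V ≃ₗ[F] V}
    (ha : Ax τ P₁ v a) (hO : g * a * g⁻¹ ∈ O Q) {α : U ≃ₗ[F] U'} {β : W ≃ₗ[F] W'}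
    (e : ∀ u z, g (τ u z) = τ' (α u) (β z)) : Ax τ' P₁' (α v) (g * a * g⁻¹) := by
  refine ax_of H' hO (φ := ((P₁ v)⁻¹ • polarBilin P₁ v) ∘ₗ α.symm) 
    (by have := ha.1; simp; field_simp) fun u z => ?_
  obtain ⟨u, rfl⟩ := α.surjective u
  obtain ⟨z, rfl⟩ := β.surjective z
  rw [← e, LinearEquiv.mul_apply, LinearEquiv.mul_apply, inv_apply_apply, ha.2, map_neg, e, refl_ap]
  simp

variable {X : Subgroup (V ≃ₗ[F] V)} [Finite F]

theorem sv2 (H : O2 P₁ P₂ Q h X) (H' : O2 P₁' P₂' Q h' X) (h3 : finrank F U = 3)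
    (h3' : finrank F U' = 3) (hd : finrank F W = finrank F W') {v : U} {w : U'} (hv : P₁ v ≠ 0)
    (hw : P₁' w ≠ 0) {g : V ≃ₗ[F] V} (hg : g ∈ X) (hs : ∀ z, ∃ z', g (τ v z) = τ' w z') :
    ∃ (α : U ≃ₗ[F] U') (β : W ≃ₗ[F] W'), ∀ u z, g (τ u z) = τ' (α u) (β z) := by
  have := finiteDimensional h
  have := finite_equiv (F := F) (V := V)
  have hp : Fact (ringChar F).Prime := ⟨CharP.char_is_prime F _⟩
  obtain ⟨γ, hγ⟩ := exists_equiv2 (Ten.flip h) (Ten.flip h') hd (ne_zero_of_Q hv)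
    (ne_zero_of_Q hw) hs
  replace hγ : ∀ z, g (τ v z) = τ' w (γ z) := hγ
  have h4 : ∀ z z', polar P₂' (γ z) (γ z') = P₁ v / P₁' w * polar P₂ z z' := fun z z' => by
    have := H.pol hg (τ v z) (τ v z')
    rw [hγ, hγ, H.eq, H'.eq, polar_self', polar_self'] at this
    field_simp
    exact mul_left_cancel₀ H.two (by linear_combination this)
  have h5 : ∀ z, P₂' (γ z) = P₁ v / P₁' w * P₂ z := fun z =>
    mul_left_cancel₀ H.two (by rw [← polar_self', h4, polar_self']; ring)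
  have h6 : ∀ x, P₂ x = 0 → x ≠ 0 → ∀ a, g (τ (cP h P₂ x a) x) =
      τ' ((P₁' w / P₁ v) • cP h' P₂' (γ x) (g a)) (γ x) := fun x hx hx0 a => by
    obtain ⟨x', hx'⟩ := H.n₂.exists_hyp hx hx0
    obtain ⟨d, h6, -, h7⟩ := hx'.exists_nonsingular H.n₂ H.hb
    have h8 : P₂' (γ x) = 0 := by simp [h5, hx]
    have h9 : polar P₂' (γ x) ((P₁' w / P₁ v) • γ d) = 0 := by simp [h4, pc h6]
    obtain ⟨h10, h11⟩ := H'.cent h3' (p := ringChar F) hw h8 (by simpa using hx0)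
    have h12 := pow_eich H'.toTenO (p := ringChar F) h8 h9
    have h13 := pow_eich H.toTenO (p := ringChar F) hx (pc h6)
    have h14 := H'.right (eich_mem_E (γ x) ((P₁' w / P₁ v) • γ d))
    have h15 : (H'.rhom (eich P₂' (γ x) ((P₁' w / P₁ v) • γ d))).1⁻¹ *
        (g * (H.rhom (eich P₂ x d)).1 * g⁻¹) ∈ Kv τ' X w := by
      refine ⟨mul_mem (inv_mem h14) (mul_mem (mul_mem hg (H.right (eich_mem_E _ _))) (inv_mem hg)),
        fun z => ?_⟩
      obtain ⟨z, rfl⟩ := γ.surjective z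
      rw [LinearEquiv.mul_apply,
        ← (H'.rhom (eich P₂' (γ x) ((P₁' w / P₁ v) • γ d))).1.injective.eq_iff,
        apply_inv_apply, H'.rhom_apply, ← hγ, LinearEquiv.mul_apply, LinearEquiv.mul_apply,
        inv_apply_apply, H.rhom_apply, hγ]
      congr 1
      simp only [eich_ap h8 h9, eich_ap hx (pc h6), map_add, map_sub, map_smul, polar_smul_left,
        h4, h5, Q_smul, smul_eq_mul]
      match_scalars <;> field_simp
    have h16 := (h11 _ h15 _ ⟨_, h9, rfl⟩).symm.mul_pow (ringChar F)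
    rw [mul_inv_cancel_left, conj_pow, h12, h13, one_mul, mul_one, mul_inv_cancel] at h16
    have h17 := eq_one_of_not_dvd h10 h15 h16.symm
    rw [inv_mul_eq_one, eq_mul_inv_iff_mul_eq] at h17
    rw [stab_of_comm2 H.toTenO H'.toTenO hx (pc h6) h7 h8 h9 h17.symm, Q_smul, h5]
    congr 3; field_simp
  obtain ⟨x, x', hx⟩ := H.n₂.exists_hyp_of_three H.hb
  obtain ⟨α, hα⟩ := exists_equiv2 h h' (h3.trans h3'.symm) hx.e_ne (x₁ := γ x)
    (by simpa using hx.e_ne) (g := g) fun u => by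
      have := h6 x hx.he hx.e_ne (τ u x')
      rw [cP_apply, hx.hef, one_smul] at this
      exact ⟨_, this⟩
  let A : AddSubgroup W :=
    { carrier := {z | ∀ u, g (τ u z) = τ' (α u) (γ z)}
      add_mem' ha hb u := by simp [ha u, hb u]
      zero_mem' u := by simp
      neg_mem' ha u := by simp [ha u] }
  refine ⟨α, γ, fun u z => sing_span H.n₂ hx.he hx.e_ne A (fun t u => by simp [hα])
    (fun y hy hxy u => ?_) z u⟩
  have h7 := h6 y hy (ne_zero_of_polar (polar_comm P₂ x y ▸ hxy)) (τ u x)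
  rw [hα, cP_apply, cP_apply, h4, smul_smul, polar_comm, map_smul, map_smul, LinearMap.smul_apply,
    LinearMap.smul_apply, map_smul] at h7
  refine smul_right_injective V hxy (h7.trans ?_)
  congr 1; field_simp

end CfsgLib.C7O
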