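import Mathlib
import Cfsg.Agent.Lib.C7O.Sv2

/-!
The stabiliser of a tensor square of a three-dimensional orthogonal space: rigidity.
-/

set_option autoImplicit false
set_option linter.unusedSectionVars false

namespace CfsgLib.C7O

open Module CfsgLib.ClMax CfsgLib.ClMax.Ten CfsgLib.OrthE CfsgLib.OMax QuadraticMap

variable {F U W V : Type*} [Field F] [AddCommGroup U] [Module F U] [AddCommGroup W]
  [Module F W] [AddCommGroup V] [Module F V] {τ : U →ₗ[F] W →ₗ[F] V}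
  {P₁ : QuadraticForm F U} {P₂ : QuadraticForm F W} {Q : QuadraticForm F V}
  {h : IsTensorProduct τ} [FiniteDimensional F U] [FiniteDimensional F W] {a b g k : V ≃ₗ[F] V}

variable (τ g) in
/-- The maps exchanging the two factors. -/
def Sw : Prop := ∃ (α : U ≃ₗ[F] W) (β : W ≃ₗ[F] U), ∀ u z, g (τ u z) = τ (β z) (α u)

variable (τ g) in
/-- The maps of the right factor. -/
def Rt : Prop := ∃ β : End F W, ∀ u z, g (τ u z) = τ u (β z)

theorem Sw.mul_kron (hg : Sw τ g) (hk : k ∈ Kron τ) : Sw τ (g * k) :=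
  let ⟨α, β, e⟩ := hg; let ⟨γ, δ, e'⟩ := hk; ⟨γ.trans α, δ.trans β, fun u z => by simp [e, e']⟩

theorem Sw.kron_mul (hg : Sw τ g) (hk : k ∈ Kron τ) : Sw τ (k * g) :=
  let ⟨α, β, e⟩ := hg; let ⟨γ, δ, e'⟩ := hk; ⟨α.trans δ, β.trans γ, fun u z => by simp [e, e']⟩

theorem Sw.mul (hg : Sw τ g) (hk : Sw τ k) : g * k ∈ Kron τ :=
  let ⟨α, β, e⟩ := hg; let ⟨γ, δ, e'⟩ := hk; ⟨γ.trans β, δ.trans α, fun u z => by simp [e, e']⟩

variable (τ) in
/-- The stabiliser of the unordered decomposition. -/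
def Wr2 : Subgroup (V ≃ₗ[F] V) where
  carrier := {g | g ∈ Kron τ ∨ Sw τ g}
  mul_mem' := by
    rintro _ _ (h1 | h1) (h2 | h2)
    exacts [.inl (mul_mem h1 h2), .inr (h2.kron_mul h1), .inr (h1.mul_kron h2), .inl (h1.mul h2)]
  one_mem' := .inl (one_mem _)
  inv_mem' := by
    rintro g (h1 | ⟨α, β, e⟩)
    exacts [.inl (inv_mem h1), .inr ⟨β.symm, α.symm, fun u z => g.injective (by simp [e])⟩]

theorem Wr2_flip : g ∈ Wr2 τ.flip ↔ g ∈ Wr2 τ :=
  or_congr (by rw [Kron_flip]) ⟨fun ⟨α, β, e⟩ => ⟨β, α, fun u z => e z u⟩,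
    fun ⟨α, β, e⟩ => ⟨β, α, fun z u => e u z⟩⟩

theorem kron_of_odd (h : IsTensorProduct τ) (h3 : 3 ≤ finrank F U) (hg : g ∈ Wr2 τ) {n : ℕ}
    (hn : Odd n) (e : g ^ n = 1) : g ∈ Kron τ := by
  refine hg.resolve_right fun hs => ?_
  obtain ⟨m, rfl⟩ := hn
  obtain ⟨α, β, e'⟩ := hs.kron_mul (pow_mem (hs.mul hs) m)
  rw [← pow_two, ← pow_mul, ← pow_succ, e] at e'
  obtain ⟨u, hu, -⟩ := exists_ker_two h3 (0 : Dual F U) 0
  obtain ⟨y, -, hy⟩ := exists_ker_not_mem h3 (0 : Dual F U) hu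
  exact hy (by simpa using mem_span_of_eq h (w' := β.symm u) (by simpa) (e' y (β.symm u)))

theorem Rt.eq_one (h : IsTensorProduct τ) (hk : Rt τ k) {u : U} (hu : u ≠ 0)
    (e : ∀ z, k (τ u z) = τ u z) : k = 1 :=
  let ⟨β, hβ⟩ := hk
  equiv_ext h fun a z => by rw [hβ, right_inj h hu ((hβ u z).symm.trans (e z))]; rfl

theorem Rt.mul (hg : Rt τ g) (hk : Rt τ k) : Rt τ (g * k) :=
  let ⟨α, e⟩ := hg; let ⟨β, e'⟩ := hk; ⟨α * β, fun u z => by simp [e, e']⟩

theorem Ax.rt {w : W} (hb : Ax τ.flip P₂ w b) : Rt τ b :=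
  ⟨-(refl P₂ w).1, fun u z => by simpa using hb.2 z u⟩

theorem Ax.ne_one (h : IsTensorProduct τ) (h2 : (2 : F) ≠ 0) (h3 : 3 ≤ finrank F U) [Nontrivial W]
    {v : U} (ha : Ax τ P₁ v a) : a ≠ 1 := by
  rintro rfl
  obtain ⟨u, hu, h4, -⟩ := exists_ker_two h3 (polarBilin P₁ v) 0
  obtain ⟨z, hz⟩ := exists_ne (0 : W)
  exact ne_zero h hu hz ((smul_eq_zero.1 ((two_smul F _).trans
    (add_eq_zero_iff_eq_neg.2 (ha.neg h4 z)))).resolve_left h2)

theorem Ax.not_rt (h : IsTensorProduct τ) (h2 : (2 : F) ≠ 0) (h3 : 3 ≤ finrank F U) [Nontrivial W]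
    {v : U} (ha : Ax τ P₁ v a) : ¬ Rt τ a := fun hr =>
  ha.ne_one h h2 h3 (hr.eq_one h (ne_zero_of_Q ha.1) ha.fix)

theorem Ax.comm_rt (h : IsTensorProduct τ) {v : U} (ha : Ax τ P₁ v a) (hb : Rt τ b) :
    Commute a b :=
  let ⟨β, e⟩ := hb; equiv_ext h fun u z => by simp [ha.2, e]

theorem Ax.uniq (h : IsTensorProduct τ) (h2 : (2 : F) ≠ 0) (h3 : 3 ≤ finrank F U) [Nontrivial W]
    {v : U} {w w' : W} {x y : V ≃ₗ[F] V} (hx : Ax τ P₁ v x) (hy : Ax τ.flip P₂ w y)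
    (ha : (∃ v, Ax τ P₁ v a) ∨ ∃ w, Ax τ.flip P₂ w a) (hb : Ax τ.flip P₂ w' b)
    (e : a * b = x * y) : b = y := by
  obtain ⟨v', ha⟩ | ⟨_, ha⟩ := ha
  · obtain ⟨u, hu, h4, h5⟩ := exists_ker_two h3 (polarBilin P₁ v) (polarBilin P₁ v')
    have h6 : y * b = x * a := by
      rw [← mul_one (y * b), ← ha.sq h, ← mul_assoc, mul_assoc y, ← (ha.comm_rt h hb.rt).eq, e,
        ← mul_assoc, ← (hx.comm_rt h hy.rt).eq, mul_assoc x, hy.sq (Ten.flip h), mul_one]
    have := (hy.rt.mul hb.rt).eq_one h hu fun z => by simp [h6, hx.neg h4, ha.neg h5]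
    exact mul_left_cancel (this.trans (hy.sq (Ten.flip h)).symm)
  · refine absurd ?_ (hx.not_rt h h2 h3)
    rw [← mul_one x, ← hy.sq (Ten.flip h), ← mul_assoc, ← e]
    exact (ha.rt.mul hb.rt).mul hy.rt

theorem Ax.mul (H : TenO P₁ P₂ Q h) (h3 : finrank F U = 3) [Nontrivial W] {v w : U}
    (ha : Ax τ P₁ v a) (hb : Ax τ P₁ w b) (hO : a * b ∈ O Q) (hne : a ≠ b) (hc : Commute a b) :
    ∃ u, Ax τ P₁ u (a * b) := by
  have d : ∀ {w}, P₁ w ≠ 0 → LinearMap.det ((refl P₁ w).1 : End F U) = -1 := fun {w} hw => by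
    rw [show ((refl P₁ w).1 : End F U) = LinearMap.transvection (-(P₁ w)⁻¹ • polarBilin P₁ w) w from
      LinearMap.ext fun v => by simp [refl_ap, LinearMap.transvection.apply, sub_eq_add_neg],
      LinearMap.transvection.det]
    simp only [LinearMap.smul_apply, polarBilin_apply_apply, polar_self', smul_eq_mul]
    field_simp; ring
  exact ax_of_det H h3 hO (α := (refl P₁ v).1 * ((refl P₁ w).1 : End F U))
    (by simp [d ha.1, d hb.1]) (fun u z => by simp [ha.2, hb.2])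
    (by rw [hc.symm.mul_mul_mul_comm, ha.sq h, hb.sq h, one_mul])
    fun e => hne (mul_right_cancel (e.trans (hb.sq h).symm))

namespace O2

variable {X : Subgroup (V ≃ₗ[F] V)} (H : O2 P₁ P₂ Q h X) [Finite F] (h3 : finrank F U = 3)
include H h3

theorem sim {α : End F U} {β : End F W} (hk : k ∈ X) (e : ∀ u z, k (τ u z) = τ (α u) (β z)) :
    ∃ μ : F, ∀ u u', μ * polar P₁ (α u) (α u') = polar P₁ u u' := by
  obtain ⟨z, z', hz⟩ := H.n₂.exists_hyp_of_three H.hb
  exact ⟨polar P₂ (β z) (β z'), fun u u' => by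
    simpa [e, H.eq, hz.hef, mul_comm] using H.pol hk (τ u z) (τ u' z')⟩

theorem right_of_pow {p : ℕ} [Fact p.Prime] [CharP F p] {v : U} (ha : Ax τ P₁ v a) (hk : k ∈ X)
    (hc : Commute a k) (hp : k ^ p = 1) : Rt τ k := by
  have hs : ∀ z, ∃ z', k (τ v z) = τ v z' := fun z => ha.eq_tau h H.two (by
    rw [← LinearEquiv.mul_apply, hc.eq, LinearEquiv.mul_apply, ha.fix])
  obtain ⟨α, β, e⟩ := H.sv h3 ha.1 ha.1 hk hs
  obtain ⟨z, z', hz⟩ := H.n₂.exists_hyp_of_three H.hb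
  have hv := ne_zero_of_Q ha.1
  obtain ⟨z'', h4⟩ := hs z
  obtain ⟨c, h5⟩ := Submodule.mem_span_singleton.1 (mem_span_of_eq h (w' := β z)
    (by simpa using hz.e_ne) ((e v z).symm.trans h4))
  have h6 : c ≠ 0 := by rintro rfl; exact hv (by simpa using h5.symm)
  obtain ⟨α, β, h7, e⟩ : ∃ (α : U ≃ₗ[F] U) (β : End F W), α v = v ∧
      ∀ u z, k (τ u z) = τ (α u) (β z) := ⟨α.trans (LinearEquiv.smulOfNeZero F U c⁻¹ (inv_ne_zero h6)),
    c • (β : End F W), by simp [← h5, h6], fun u z => by simp [e, h6]⟩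
  have h8 : ∀ (n : ℕ) u z, (k ^ n) (τ u z) = τ ((α ^ n) u) ((β ^ n) z) := fun n => by
    induction n with
    | zero => simp
    | succ n ih => intro u z; simp [pow_succ', ih, e]
  have h9 : (α ^ p) v = v := by
    rw [LinearEquiv.pow_apply]; exact Function.iterate_fixed h7 p
  have h10 : (β ^ p) z = z := right_inj h hv (by rw [← h9, ← h8, hp, h9]; rfl)
  obtain ⟨μ, hμ⟩ := H.sim h3 (α := α) hk e
  have h11 : μ = 1 := mul_right_cancel₀ (polar_self_ne H.two ha.1) (by simpa [h7] using hμ v v)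
  exact ⟨β, fun u w => by rw [e, left_one h3 H.toTenO ha.1 (μ := 1) (by simpa [h11] using hμ) h7
    (p := p) (n := 1) (LinearEquiv.ext fun u => left_inj h hz.e_ne (by
      rw [pow_one, ← h10, ← h8, hp, h10]; rfl))]⟩

theorem no_swap {p : ℕ} [Fact p.Prime] [CharP F p] (hb : b ∈ X) (hs : Sw τ b) (h1 : b * b = 1)
    (hg : ∀ k ∈ X, Commute b k → k ^ p = 1 → Rt τ (g⁻¹ * k * g)) : False := by
  obtain ⟨α, β, e⟩ := hs
  obtain ⟨x, x', hx⟩ := H.n₁.exists_hyp_of_three H.ha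
  obtain ⟨d, h4, h5, h6⟩ := hx.exists_nonsingular H.n₁ H.ha
  have k : ∀ s : F, ∃ γ : End F W, ∃ δ : V ≃ₗ[F] V, (∀ u z, δ (g (τ u z)) = g (τ u (γ z))) ∧
      ∀ u u', δ (τ u (α u')) = τ ((eich P₁ x (s • d)).1 u) (α ((eich P₁ x (s • d)).1 u')) := by
    intro s
    have h7 := H.left (eich_mem_E x (s • d))
    have h8 := pow_eich H.flip (p := p) hx.he (c := s • d) (by simp [pc h4])
    have h9 := H.lhom_apply (eich P₁ x (s • d))
    generalize (H.flip.rhom (eich P₁ x (s • d))).1 = a at h7 h8 h9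
    generalize eich P₁ x (s • d) = ε at h9
    have h10 : ∀ u u', (b * a * b⁻¹) (τ u (α u')) = τ u (α (ε.1 u')) := fun u u' => by
      obtain ⟨u, rfl⟩ := β.surjective u
      rw [← e, LinearEquiv.mul_apply, LinearEquiv.mul_apply, inv_apply_apply, h9, e]
    have h11 : Commute a (b * a * b⁻¹) := equiv_ext h fun u z => by
      obtain ⟨z, rfl⟩ := α.surjective z
      rw [LinearEquiv.mul_apply, LinearEquiv.mul_apply _ a, h9, h10, h10, h9]
    obtain ⟨γ, hγ⟩ := hg (a * (b * a * b⁻¹)) (mul_mem h7 (mul_mem (mul_mem hb h7) (inv_mem hb)))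
      (by rw [Commute, SemiconjBy]; nth_rw 2 [h11.eq]
          simp only [inv_eq_of_mul_eq_one_right h1, mul_assoc, ← mul_assoc b b, h1, one_mul, mul_one])
      (by rw [h11.mul_pow, conj_pow, h8]; simp)
    exact ⟨γ, a * (b * a * b⁻¹), fun u z => by rw [← hγ]; simp, fun u u' => by
      rw [LinearEquiv.mul_apply, h10, h9]⟩
  choose γ δ h7 h8 using k
  obtain ⟨t, ht, ht'⟩ := H.exists_t
  have h9 : ∀ y, δ t y + δ (-t) y - (t * t) • (δ 1 y + δ (-1) y) + (2 * (t * t - 1)) • y =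
      (2 * t * t * (t * t - 1) * P₁ d * P₁ d) • τ (polar P₁ x (cR h (polarBilin P₁ x ∘ₗ α.symm) y) • x)
        (α x) := fun y => by
    induction y using h.inductionOn with
    | zero => simp
    | add a b ha hb =>
      simp only [map_add, polar_add_right, add_smul, LinearMap.add_apply]
      linear_combination (norm := module) ha + hb
    | tmul u z =>
      obtain ⟨z, rfl⟩ := α.surjective z
      have k : ∀ s : F, polar P₁ x (s • d) = 0 := by simp [pc h4]
      simp only [h8, eich_ap hx.he (k _), Q_smul]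
      simp only [map_add, map_sub, map_smul, LinearMap.add_apply, LinearMap.sub_apply,
        LinearMap.smul_apply, polar_smul_left, polar_smul_right, smul_eq_mul, cR_apply,
        LinearMap.comp_apply, LinearEquiv.coe_coe, LinearEquiv.symm_apply_apply,
        polarBilin_apply_apply]
      module
  obtain ⟨Γ, hΓ⟩ : ∃ Γ : End F W, ∀ u z, g (τ u (Γ z)) = (2 * t * t * (t * t - 1) * P₁ d * P₁ d) •
      τ (polar P₁ x (cR h (polarBilin P₁ x ∘ₗ α.symm) (g (τ u z))) • x) (α x) :=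
    ⟨γ t + γ (-t) - (t * t) • (γ 1 + γ (-1)) + (2 * (t * t - 1)) • 1, fun u z => by
      rw [← h9]; simp [h7]⟩
  have h10 : τ x (α x) ≠ 0 := ne_zero h hx.e_ne (by simpa using hx.e_ne)
  obtain ⟨θ, hθ⟩ := Projective.exists_dual_eq_one F h10
  have h11 := finrank_mul_le h (LinearMap.range Γ) (θ ∘ₗ (g : End F V))
    ((Submodule.span F {τ x (α x)}).comap (g : End F V)) (by
      rintro u _ ⟨z, rfl⟩
      simp only [Submodule.mem_comap, LinearEquiv.coe_coe, hΓ, map_smul, LinearMap.smul_apply]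
      exact Submodule.smul_mem _ _ (Submodule.smul_mem _ _ (Submodule.mem_span_singleton_self _)))
    fun y hy h11 => by
      obtain ⟨c, hc⟩ := Submodule.mem_span_singleton.1 hy
      rw [LinearMap.comp_apply, ← hc, map_smul, hθ, smul_eq_mul, mul_one] at h11
      simpa [h11] using hc.symm
  rw [h3, finrank_self] at h11
  have h12 := LinearMap.range_eq_bot.1 (Submodule.finrank_eq_zero.1 (by omega :
    finrank F (LinearMap.range Γ) = 0))
  have h13 := LinearMap.congr_fun (ext h (f := (polarBilin P₁ x ∘ₗ cR h (polarBilin P₁ x ∘ₗ α.symm)) ∘ₗ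
    (g : End F V)) (g := 0) fun u z => by
      simpa [h12, H.two, ht, sub_ne_zero.2 ht', h6, h10] using (hΓ u z).symm) (g⁻¹ (τ x' (α x')))
  simp [hx.hef] at h13

theorem exists_comm (hk : k ∈ X) (hK : k ∈ Kron τ) (h1 : k * k = 1) :
    ∃ t ∈ X, ∃ v, Ax τ P₁ v t ∧ Commute t k := by
  have : Nontrivial W := nontrivial_of_finrank_pos (R := F) (by have := H.hb; omega)
  obtain ⟨l, hl, v, hv⟩ := H.exists_ax h3
  obtain ⟨w, φ, β, -, rfl | hw, e⟩ := kron_inv h h3 hK h1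
  · exact ⟨_, H.left hl, v, hv, hv.comm_rt h ⟨-β, by simp [e]⟩⟩
  obtain ⟨μ, hμ⟩ := H.sim h3 (α := φ.smulRight w - 1) hk e
  obtain ⟨u, h4, h5⟩ := exists_nonsing H.n₁ (S := LinearMap.ker φ) (by
    have := LinearMap.finrank_range_add_finrank_ker φ
    have := (LinearMap.range φ).finrank_le
    rw [finrank_self] at this; omega)
  have h6 : μ = 1 := mul_right_cancel₀ (polar_self_ne H.two h5) (by
    simpa [show φ u = 0 from h4, -polar_self] using hμ u u)
  have h7 : ∀ u, φ u * P₁ w = polar P₁ w u := fun u => by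
    have := hμ w u
    simp only [h6, LinearMap.sub_apply, LinearMap.smulRight_apply, End.one_apply, hw,
      polar_sub_left, polar_sub_right, polar_smul_left, polar_smul_right, polar_self',
      smul_eq_mul] at this
    exact mul_left_cancel₀ H.two (by linear_combination this)
  have h8 : P₁ w ≠ 0 := fun h2 => H.two (by
    rw [← hw, H.n₁ w fun u => by rw [← h7, h2, mul_zero], map_zero])
  obtain ⟨w', -, h9, h10⟩ := exists_norm_polar H.n₁ H.two (nd_top H.n₁) (by simp [h3]) trivial h8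
    (P₁ v) 0
  have h11 : φ w' = 0 := by simpa [h10, h8] using h7 w'
  have h12 : Ax τ P₁ w' (_ * (H.flip.rhom (refl P₁ v * refl P₁ w')).1) := ⟨h9 ▸ hv.1, fun u z => by
    rw [LinearEquiv.mul_apply, H.lhom_apply, hv.2, ← O_mul_apply, ← mul_assoc, refl_mul_self,
      one_mul]⟩
  refine ⟨_, mul_mem (H.left hl) (H.left (refl_mem_E H.n₁ H.ha hv.1 one_ne_zero (by simp [h9]))),
    w', h12, equiv_ext h fun u z => ?_⟩
  rw [LinearEquiv.mul_apply, LinearEquiv.mul_apply k, e, h12.2, h12.2, map_neg, e]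
  simp [refl_ap, h11, pc h10]
  abel

theorem rigW (h3' : finrank F W = 3) {v : U} (hg : g ∈ X) (ha : Ax τ P₁ v a) (hX : a ∈ X)
    (hb : g * a * g⁻¹ ∈ Wr2 τ) : g ∈ Wr2 τ := by
  have : Nontrivial W := nontrivial_of_finrank_pos (R := F) (by omega)
  have : Nontrivial U := nontrivial_of_finrank_pos (R := F) (by omega)
  have hp : Fact (ringChar F).Prime := ⟨CharP.char_is_prime F _⟩
  have h1 := mul_mem (mul_mem hg hX) (inv_mem hg)
  have h2 : g * a * g⁻¹ * (g * a * g⁻¹) = 1 := by rw [conj_mul, ha.sq h]; simp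
  rcases hb with hb | hb
  · obtain ⟨Φ, hΦ⟩ := ha.phi h H.two g
    obtain ⟨w, hw⟩ | ⟨β, -, e⟩ := rec1 H.toTenO h3 (H.hX h1) hb h2 hΦ
    · exact .inl (H.rig h3 hg ha hw)
    obtain ⟨w, hw⟩ | ⟨α, -, e'⟩ := rec1 H.flip h3' (H.hX h1) (Kron_flip (τ := τ) ▸ hb) h2
      (Φ := LinearEquiv.ofFinrankEq W U (h3'.trans h3.symm) ∘ₗ Φ) fun x h4 h5 =>
        hΦ x h4 (by simpa using h5)
    · exact .inr (sv2 H H.sym h3 h3' (h3'.trans h3.symm) ha.1 hw.1 hg fun z =>
        hw.eq_tau (Ten.flip h) H.two (by simp [ha.fix]))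
    obtain ⟨z, hz⟩ := exists_ne (0 : W)
    obtain ⟨c, hc⟩ := scalar_of_forall_mem_span (f := α) fun u =>
      mem_span_of_eq h hz ((e' z u).symm.trans (e u z))
    have h4 : ∀ y, a y = c • y := fun y => g.injective (by
      simpa using LinearMap.congr_fun (ext h (f := ((g * a * g⁻¹ : V ≃ₗ[F] V) : End F V))
        (g := c • 1) fun u z => by simpa [hc] using e' z u) (g y))
    exact absurd ⟨c • 1, by simp [h4]⟩ (ha.not_rt h H.two H.ha)
  · exact (H.no_swap h3 (p := ringChar F) h1 hb h2 fun k hk h4 h5 => H.right_of_pow h3 ha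
      (mul_mem (mul_mem (inv_mem hg) hk) hg) (by simpa [mul_assoc] using h4.conj g⁻¹)
      (by simpa [h5] using conj_pow (a := g⁻¹) (b := k) (i := ringChar F))).elim

end O2

end CfsgLib.C7O
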